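import Cfsg.Agent.Blocks.Major
import Cfsg.Agent.Blocks.Transport

/-!
# A rank one major subsection of an involution in defect two
-/

set_option autoImplicit false
set_option linter.unusedSectionVars false
set_option linter.style.haveILetI false

namespace CfsgLib.KleinFour

open Cfsg CfsgLib CfsgLib.Blocks CfsgLib.CharBasics Polynomial
open scoped ComplexConjugate

variable {G : Type*} [Group G] [Fintype G]

/-- A family of four integers, in the shape needed below. -/
theorem card_eq_four {ι : Type*} [DecidableEq ι] (S : Finset ι) (m : ι → ι → ℤ) {χ₁ : ι} (h₁ : χ₁ ∈ S)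
    (hrow : ∀ a ∈ S, ∑ b ∈ S, m a b ^ 2 = 4 * m a a) (htr : ∑ a ∈ S, m a a = 4)
    (hne : ∀ a ∈ S, m a χ₁ ≠ 0) (hodd : ¬ (2 : ℤ) ∣ m χ₁ χ₁) : S.card = 4 := by
  have hd : ∀ a ∈ S, 1 ≤ m a a := fun a ha => by
    have h1 : m a χ₁ ^ 2 ≤ ∑ b ∈ S, m a b ^ 2 :=
      Finset.single_le_sum (f := fun b => m a b ^ 2) (fun b _ => sq_nonneg _) h₁
    rw [hrow a ha] at h1
    have := sq_pos_of_ne_zero (hne a ha)
    omega
  have hle : (S.card : ℤ) ≤ 4 := by
    rw [← htr, Finset.card_eq_sum_ones, Nat.cast_sum]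
    exact Finset.sum_le_sum fun a ha => by simpa using hd a ha
  refine le_antisymm (by exact_mod_cast hle) ?_
  by_cases h1 : ∃ a ∈ S, m a a = 1
  · obtain ⟨a, ha, ha1⟩ := h1
    have h := hrow a ha
    rw [← Finset.add_sum_erase S _ ha, ha1] at h
    have h3 : ∑ b ∈ S.erase a, m a b ^ 2 = 3 := by linarith
    have h4 : ∑ b ∈ S.erase a, m a b ^ 2 ≤ ∑ b ∈ S.erase a, 1 := by
      refine Finset.sum_le_sum fun b hb => ?_
      have hb3 : m a b ^ 2 ≤ 3 := h3 ▸ Finset.single_le_sum (f := fun b => m a b ^ 2) (fun c _ => sq_nonneg _) hb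
      have : -1 ≤ m a b ∧ m a b ≤ 1 := by constructor <;> nlinarith
      nlinarith
    rw [h3, Finset.sum_const, nsmul_eq_mul, mul_one, Finset.card_erase_of_mem ha] at h4
    omega
  · exfalso
    push Not at h1
    have h2 : ∀ a ∈ S, 2 ≤ m a a := fun a ha => by have := hd a ha; have := h1 a ha; omega
    have h := Finset.add_sum_erase S (fun a => m a a) h₁
    rcases (S.erase χ₁).eq_empty_or_nonempty with he | ⟨b, hb⟩
    · rw [he, Finset.sum_empty, htr] at h
      omega
    · have h5 : m b b ≤ ∑ a ∈ S.erase χ₁, m a a :=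
        Finset.single_le_sum (f := fun a => m a a) (fun a ha => by linarith [hd a (Finset.mem_of_mem_erase ha)]) hb
      have := h2 b (Finset.mem_of_mem_erase hb)
      have := h2 χ₁ h₁
      omega

variable {M : Ideal AlgInt} {x : G} [Fintype (Subgroup.centralizer ({x} : Set G))]

/-- With a rank one major subsection at an involution, a block of defect two has four members. -/
theorem card_block_eq_four (hM : IsPModular 2 M) (hx : orderOf x = 2) {B : Set (IrrCharacter G)}
    {b : Set (IrrCharacter (Subgroup.centralizer ({x} : Set G)))}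
    (hind : IsInducedBlock M (Subgroup.centralizer ({x} : Set G)) b B) (hl : blockRank 2 b = 1)
    (hdb : blockDefect 2 b = 2) (hdB : blockDefect 2 B = 2) : Nat.card B = 4 := by
  classical
  haveI : Fintype (IrrCharacter G) := @Fintype.ofFinite _ finite_irrCharacter
  have hxk : ∃ k : ℕ, orderOf x = 2 ^ k := ⟨1, by rw [hx, pow_one]⟩
  obtain ⟨ξ₀, h₀, hmin₀, he₀⟩ := exists_min_degExp hM hind.1
  obtain ⟨χ₁, hχ₁, hmin₁, he₁⟩ := exists_min_degExp hM hind.2.1
  have hh1 : blockHeight 2 B (χ₁ : G → ℂ) = 0 := by rw [blockHeight_eq he₁, Nat.sub_self]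
  have hn : (Nat.card (Subgroup.centralizer ({x} : Set G))).factorization 2 - degExp 2 ξ₀ = 2 := by
    rw [← blockDefect_eq he₀, hdb]
  have hN : (2 : ℕ) ^ 1 ≠ 0 := by norm_num
  have hdvd : orderOf x ∣ 2 ^ 1 := by rw [hx, pow_one]
  have hζ : zetaRoot (2 ^ 1) = -1 := by
    have h := zetaRoot_prim hN
    rw [pow_one] at h ⊢
    exact h.eq_neg_one_of_two_right
  set m : IrrCharacter G → IrrCharacter G → ℤ :=
    fun χ ψ => (contribPoly 2 (2 ^ 1) x b (degExp 2 ξ₀) χ ψ).eval (-1) with hm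
  have hmc : ∀ χ ψ, aeval (zetaRoot (2 ^ 1)) (contribPoly 2 (2 ^ 1) x b (degExp 2 ξ₀) χ ψ) = (m χ ψ : ℂ) := by
    intro χ ψ
    rw [hζ, show (-1 : ℂ) = algebraMap ℤ ℂ (-1) by simp, aeval_algebraMap_apply]
    simp [hm, coe_aeval_eq_eval]
  have hsym : ∀ χ ψ, m χ ψ = m ψ χ := fun χ ψ => by
    have h := conj_contrib hM.1 hN b (degExp 2 ξ₀) χ ψ (zetaRoot_prim hN).pow_eq_one
    rw [hmc, hmc, map_intCast] at h
    exact_mod_cast h
  have hout : ∀ χ ∉ B, ∀ ψ, m χ ψ = 0 := by
    intro χ hχ ψ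
    have h0 : aeval (zetaRoot (2 ^ 1)) (contribPoly 2 (2 ^ 1) x b (degExp 2 ξ₀) χ ψ) = 0 := by
      rw [aeval_contribPoly hM hN hdvd hmin₀]
      have : ∀ y, secVal 2 x b (χ : G → ℂ) y = 0 := fun y => by
        refine secVal_eq_zero hM hxk hind.1 (isPBlock_blockOf M χ) (mem_blockOf_self hM χ) (fun h => hχ ?_) y
        obtain ⟨ξ, hξ⟩ := IsPBlock.nonempty hM hind.1
        rw [IsPBlock.eq_blockOf hM hind.2.1 hχ₁]
        intro g
        simpa using memLocalIdeal_sub hM (h.2.2 ξ hξ χ (mem_blockOf_self hM χ) g) (hind.2.2 ξ hξ χ₁ hχ₁ g)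
      simp [this]
    rw [hmc] at h0
    exact_mod_cast h0
  set S := Finset.univ.filter (fun χ : IrrCharacter G => χ ∈ B) with hS
  have hcard : Nat.card B = S.card := by
    rw [Nat.card_eq_fintype_card (α := B), hS, ← Fintype.card_subtype]
  have hj : (1 : ℕ).Coprime (2 ^ 1) := Nat.coprime_one_left _
  rw [hcard]
  refine card_eq_four S m (χ₁ := χ₁) (by simp [hS, hχ₁]) (fun χ _ => ?_) ?_ (fun χ hχ h0 => ?_) ?_
  · have h := sum_contrib_mul hM hxk hind.1 hN hdvd hmin₀ hj χ χ
    simp only [pow_one] at hmc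
    simp only [pow_one, hmc, hn] at h
    rw [Finset.sum_subset (Finset.subset_univ S) fun ψ _ hψ => by
      rw [hsym, hout ψ (by simpa [hS] using hψ)]; ring]
    have h' : ((∑ ψ, m χ ψ * m ψ χ : ℤ) : ℂ) = ((4 * m χ χ : ℤ) : ℂ) := by
      push_cast; rw [h]; norm_num
    rw [← Int.cast_inj (α := ℂ), ← h']
    congr 1
    exact Finset.sum_congr rfl fun ψ _ => by rw [hsym ψ χ, sq]
  · have h := sum_contrib_diag hM hxk hind.1 hN hdvd hmin₀ hj
    simp only [pow_one] at hmc
    simp only [pow_one, hmc, hn, hl] at h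
    rw [Finset.sum_subset (Finset.subset_univ S) fun ψ _ hψ => hout ψ (by simpa [hS] using hψ) ψ]
    rw [← Int.cast_inj (α := ℂ)]
    push_cast
    rw [h]; norm_num
  · refine major_not_mem hM hxk hind (K := 1) hdvd h₀ hmin₀ (hdB.trans hn.symm) (Finset.mem_filter.1 hχ).2 hχ₁ hh1 ?_
    rw [hmc, h0, Int.cast_zero, zero_div]
    exact memLocalIdeal_zero hM
  · intro hdvd2
    refine contrib_not_mem hM hind hχ₁ hmin₁ hχ₁ hmin₁ h₀ hmin₀ (K := 1) (zetaRoot_prim hN).pow_eq_one ?_
    rw [hmc, memLocalIdeal_intCast_iff hM]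
    exact_mod_cast hdvd2

/-- The rank of a block is invariant under isomorphisms. -/
theorem blockRank_pushBlock {A C : Type*} [Group A] [Fintype A] [Group C] [Fintype C] (p : ℕ) (φ : A ≃* C)
    (f : Set (IrrCharacter A)) : blockRank p (pushBlock φ f) = blockRank p f := by
  classical
  unfold blockRank pushBlock
  rw [← LinearEquiv.finrank_map_eq (LinearEquiv.funCongrLeft ℂ ℂ φ.symm.toEquiv)
    (Submodule.span ℂ ((fun χ : IrrCharacter A => pRegularPart p (χ : A → ℂ)) '' f))]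
  rw [Submodule.map_span, Set.image_image, Set.image_image]
  refine congrArg (fun s => Module.finrank ℂ ↥(Submodule.span ℂ s)) (Set.image_congr fun χ _ => funext fun c => ?_)
  simp only [pRegularPart, IsPRegular, pushChar_apply, LinearEquiv.coe_coe, LinearEquiv.funCongrLeft_apply,
    LinearMap.funLeft_apply, MulEquiv.toEquiv_eq_coe, EquivLike.coe_coe, MulEquiv.orderOf_eq]
  by_cases h : p ∣ orderOf c <;> simp [h, MulEquiv.orderOf_eq]

end CfsgLib.KleinFour
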