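import Cfsg.Agent.Blocks.KleinFour.Main

/-!
# The numbers attached to a block with a four-group as defect group
-/

set_option autoImplicit false
set_option linter.unusedSectionVars false
set_option linter.style.haveILetI false

namespace CfsgLib.KleinFour

open Cfsg CfsgLib CfsgLib.Blocks CfsgLib.CharBasics CfsgLib.PairAlg CfsgLib.NilBlock

attribute [local instance] residueField residue_charP

universe u

variable {M : Ideal AlgInt} {G : Type u} [Group G] [Fintype G]

noncomputable local instance instFintypeSubgroupKleinCount (K : Subgroup G) : Fintype K := Fintype.ofFinite K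

/-- Representatives of the classes of two-elements through a chosen one. -/
theorem exists_reps (x₀ : G) (hx₀ : ∃ k : ℕ, orderOf x₀ = 2 ^ k) (hne : x₀ ≠ 1) :
    ∃ X : Finset G, (∀ x ∈ X, ∃ k : ℕ, orderOf x = 2 ^ k) ∧
      (∀ g : G, (∃ k : ℕ, orderOf g = 2 ^ k) → ∃! x, x ∈ X ∧ IsConj g x) ∧ x₀ ∈ X ∧ (1 : G) ∈ X := by
  classical
  let rep : G → G := fun g => if IsConj g x₀ then x₀ else Quotient.out (ConjClasses.mk g)
  have hrep : ∀ g, IsConj g (rep g) := fun g => by
    simp only [rep]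
    split_ifs with h
    · exact h
    · exact ConjClasses.mk_eq_mk_iff_isConj.1 (Quotient.out_eq (ConjClasses.mk g)).symm
  have heq : ∀ g h, IsConj g h → rep g = rep h := fun g h hgh => by
    simp only [rep]
    rw [ConjClasses.mk_eq_mk_iff_isConj.2 hgh]
    by_cases h1 : IsConj g x₀
    · rw [if_pos h1, if_pos (hgh.symm.trans h1)]
    · rw [if_neg h1, if_neg fun h2 => h1 (hgh.trans h2)]
  have hord : ∀ g, (∃ k : ℕ, orderOf g = 2 ^ k) → ∃ k : ℕ, orderOf (rep g) = 2 ^ k := fun g ⟨k, hk⟩ => by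
    obtain ⟨c, hc⟩ := isConj_iff.1 (hrep g)
    refine ⟨k, ?_⟩
    rw [← hc, show c * g * c⁻¹ = (MulAut.conj c).toMonoidHom g from rfl,
      orderOf_injective _ (MulAut.conj c).injective, hk]
  refine ⟨(Finset.univ.filter fun g : G => ∃ k : ℕ, orderOf g = 2 ^ k).image rep, ?_, fun g hg => ?_, ?_, ?_⟩
  · intro x hx
    obtain ⟨g, hg, rfl⟩ := Finset.mem_image.1 hx
    exact hord g (Finset.mem_filter.1 hg).2
  · refine ⟨rep g, ⟨Finset.mem_image.2 ⟨g, Finset.mem_filter.2 ⟨Finset.mem_univ _, hg⟩, rfl⟩, hrep g⟩, ?_⟩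
    rintro x ⟨hx, hgx⟩
    obtain ⟨g', -, rfl⟩ := Finset.mem_image.1 hx
    exact (heq _ _ (hgx.trans (hrep g').symm)).symm
  · exact Finset.mem_image.2 ⟨x₀, Finset.mem_filter.2 ⟨Finset.mem_univ _, hx₀⟩, if_pos (IsConj.refl _)⟩
  · refine Finset.mem_image.2 ⟨1, Finset.mem_filter.2 ⟨Finset.mem_univ _, 0, by simp⟩, ?_⟩
    exact (isConj_one_right.1 (hrep 1))

/-- The numbers of ordinary and modular characters of a block with a four-group as defect group. -/
theorem klein_four_counts (hM : IsPModular 2 M) {B : Set (IrrCharacter G)} (hB : IsPBlock M B) {P : Subgroup G}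
    (hPD : IsDefectGroup 2 M B P) (hV : IsKleinFour P) {c : Set (IrrCharacter (Subgroup.centralizer (P : Set G)))}
    (hc : IsInducedBlock M (Subgroup.centralizer (P : Set G)) c B) :
    ((Subgroup.centralizer (P : Set G)).relIndex (stab P (bc hM P c)) = 1 ∨
      (Subgroup.centralizer (P : Set G)).relIndex (stab P (bc hM P c)) = 3) ∧ Nat.card B = 4 ∧
      blockRank 2 B = (Subgroup.centralizer (P : Set G)).relIndex (stab P (bc hM P c)) := by
  classical
  haveI : Fact (Nat.Prime 2) := ⟨Nat.prime_two⟩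
  haveI : Fintype (IrrCharacter G) := @Fintype.ofFinite _ finite_irrCharacter
  haveI : ∀ K : Subgroup G, Fintype (IrrCharacter K) := fun K => @Fintype.ofFinite _ finite_irrCharacter
  have hmax := isMaximal_of_induced hM hPD hc
  obtain ⟨he, hfree, htrans, hone⟩ := inertial_facts hM hV hmax
  have hab : ∀ x ∈ P, ∀ y ∈ P, x * y = y * x := fun x hx y hy =>
    congrArg Subtype.val (mul_comm_of_exponent_two hV.exponent_two (⟨x, hx⟩ : P) ⟨y, hy⟩)
  have hdB : blockDefect 2 B = 2 := by
    have h := card_defectGroup hM hB hPD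
    rw [hV.card_four] at h
    exact Nat.pow_right_injective le_rfl (a₁ := blockDefect 2 B) (a₂ := 2) (by simpa using h.symm)
  obtain ⟨x₀, hx₀P, hx₀1⟩ : ∃ x ∈ P, x ≠ (1 : G) := by
    by_contra hcon
    push Not at hcon
    have h := hV.card_four
    rw [(Subgroup.eq_bot_iff_forall _).2 hcon, Subgroup.card_bot] at h
    omega
  have hx₀k := exists_orderOf_eq_of_mem hmax.1.1.1 hx₀P
  obtain ⟨b₀, hbel₀, hind₀, hl₀, hd₀⟩ := exists_local hM hB hPD hc hab hfree hx₀P hx₀1
  have hk : Nat.card B = 4 := by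
    refine card_block_eq_four hM ?_ hind₀ hl₀ ?_ hdB
    · refine orderOf_eq_prime ?_ hx₀1
      have h := Monoid.pow_exponent_eq_one (⟨x₀, hx₀P⟩ : P)
      rw [hV.exponent_two] at h
      exact congrArg Subtype.val h
    · rw [hV.card_four] at hd₀
      exact Nat.pow_right_injective le_rfl (a₁ := blockDefect 2 b₀) (a₂ := 2) (by simpa using hd₀)
  refine ⟨he, hk, ?_⟩
  obtain ⟨X, hX, hXrep, hx₀X, h1X⟩ := exists_reps x₀ hx₀k hx₀1
  set r : G → ℕ := fun x =>
    ∑ᶠ b ∈ {b : Set (IrrCharacter (cen x)) | IsInducedBlock M (cen x) b B}, blockRank 2 b with hr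
  have hcount : blockRank 2 B + ∑ x ∈ X.erase 1, r x = 4 := by
    have h := Cfsg.Agent.S4511.result 2 M hM B hB X hX hXrep
    rw [hk, ← Finset.add_sum_erase X _ h1X, rank_at_one hM hB] at h
    exact h.symm
  have hsame : ∀ {y : G} {b b' : Set (IrrCharacter (cen y))}, IsPBlock M b → IsPBlock M b' →
      bb hM y b = bb hM y b' → b = b' := fun hb hb' h => bl_inj hM _ (cen _).subtype_injective hb hb' h
  rcases he with he | he
  · -- three subsections which are not conjugate
    have hTC := hone he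
    have hxs : ∀ x : {x : G // x ∈ P ∧ x ≠ 1}, ∃ y : G, ∃ b' : Set (IrrCharacter (cen y)),
        y ∈ X.erase 1 ∧ IsInducedBlock M (cen y) b' B ∧ ∃ g a, y = g * (x : G) * g⁻¹ ∧
          LE' 2 ⊤ (Subgroup.zpowers (x : G)) a P (bc hM P c) ∧ bb hM y b' = PairAlg.cj g a := by
      rintro ⟨x, hxP, hx1⟩
      obtain ⟨b, hbel, -, -, -⟩ := exists_local hM hB hPD hc hab hfree hxP hx1
      have hxk := exists_orderOf_eq_of_mem hmax.1.1.1 hxP
      obtain ⟨y, ⟨hyX, hxy⟩, -⟩ := hXrep x hxk
      obtain ⟨g, hg⟩ := isConj_iff.1 hxy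
      subst hg
      obtain ⟨b', hb', hbb, -⟩ := exists_conj_block hM g x hbel.2.1
      refine ⟨_, b', Finset.mem_erase.2 ⟨fun h => hx1 (conj_eq_one_iff.1 h), hyX⟩, ?_, g, bb hM x b, rfl,
        hbel.2.2, hbb⟩
      refine (induced_iff_ofBlk hM (hX _ hyX) hb' hB).2 ?_
      rw [hbb, ← cm_zpowers]
      exact (ofBlk_of_below hM hmax hbel.2.2).cj g
    choose y b' hy hind g a hyg ha hbb using hxs
    have hinj : Function.Injective (fun x => (⟨y x, b' x⟩ : Σ z : G, Set (IrrCharacter (cen z)))) := by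
      intro i j hij
      have h2 := congrArg (fun s : Σ z : G, Set (IrrCharacter (cen z)) => (s.1, bb hM s.1 s.2)) hij
      simp only [Prod.mk.injEq] at h2
      obtain ⟨hy2, hb2⟩ := h2
      rw [hbb, hbb] at hb2
      have hconj : (g j)⁻¹ * g i * (i : G) * ((g j)⁻¹ * g i)⁻¹ = (j : G) := by
        rw [hyg, hyg] at hy2
        calc (g j)⁻¹ * g i * (i : G) * ((g j)⁻¹ * g i)⁻¹ = (g j)⁻¹ * (g i * (i : G) * (g i)⁻¹) * g j := by group
          _ = _ := by rw [hy2]; group
      have hle : LE' 2 ⊤ (cm ((g j)⁻¹ * g i) (Subgroup.zpowers (i : G))) (PairAlg.cj ((g j)⁻¹ * g i) (a i))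
          P (bc hM P c) := by
        rw [cm_zpowers, hconj, ← cj_cj, hb2, cj_inv_cj]
        exact ha j
      obtain ⟨t, ht, hti⟩ := exists_stab_move hM hmax hab (ha i) hle
      rw [hconj, ← Subgroup.mem_centralizer_iff.1 (hTC ht) _ i.2.1, mul_inv_cancel_right] at hti
      exact Subtype.ext hti
    set S := (X.erase 1).sigma fun z =>
      (Finset.univ : Finset (Set (IrrCharacter (cen z)))).filter fun b => IsInducedBlock M (cen z) b B with hS
    have hrS : ∑ x ∈ X.erase 1, r x = ∑ s ∈ S, blockRank 2 s.2 := by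
      rw [hS, Finset.sum_sigma]
      refine Finset.sum_congr rfl fun z _ => ?_
      exact finsum_mem_eq_sum_of_subset _ (fun b hb => by simpa using hb.1) (fun b hb => by simpa using hb)
    have h3 : 3 ≤ ∑ x ∈ X.erase 1, r x := by
      rw [hrS]
      refine le_trans (le_trans (le_of_eq ?_)
        (Finset.card_le_card_of_injOn (s := (Finset.univ : Finset {x : G // x ∈ P ∧ x ≠ 1}))
          (t := S) _ (fun x _ => ?_) hinj.injOn)) ?_
      · rw [Finset.card_univ, ← Nat.card_eq_fintype_card]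
        haveI : Fintype P := Fintype.ofFinite _
        have hP4 : Fintype.card P = 4 := by rw [← Nat.card_eq_fintype_card]; exact hV.card_four
        rw [← Nat.card_congr (Equiv.subtypeSubtypeEquivSubtypeInter (fun x : G => x ∈ P) (· ≠ 1)),
          Nat.card_congr (Equiv.subtypeEquivRight (q := fun z : P => z ≠ 1) fun z => by simp),
          Nat.card_eq_fintype_card (α := {z : P // z ≠ 1}), Fintype.card_subtype_compl, Fintype.card_subtype_eq, hP4]
      · exact Finset.mem_sigma.2 ⟨hy x, Finset.mem_filter.2 ⟨Finset.mem_univ _, hind x⟩⟩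
      · rw [Finset.card_eq_sum_ones]
        exact Finset.sum_le_sum fun s hs =>
          blockRank_pos hM (Finset.mem_filter.1 (Finset.mem_sigma.1 hs).2).2.1
    have := blockRank_pos (p := 2) hM hB
    omega
  · -- all subsections are conjugate
    have hmem : ∀ {z : G}, z ∈ X.erase 1 → ∀ {b : Set (IrrCharacter (cen z))}, IsInducedBlock M (cen z) b B →
        z = x₀ ∧ ∃ h : G, h * z * h⁻¹ = x₀ ∧ PairAlg.cj h (bb hM z b) = bb hM x₀ b₀ := by
      intro z hz b hb
      obtain ⟨hz1, hzX⟩ := Finset.mem_erase.1 hz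
      obtain ⟨g, hgP, hle⟩ := exists_conj_le hM hmax hB (hX z hzX) hb
      obtain ⟨t, ht, htx⟩ := htrans he _ hgP (fun h => hz1 (conj_eq_one_iff.1 h)) x₀ hx₀P hx₀1
      have hconj : t * g * z * (t * g)⁻¹ = x₀ := by
        rw [← htx]; group
      have hle' := hle.cj t
      rw [cm_cm, cj_cj, cm_of_mem_normalizer ht.1, mem_stabOf.1 ht.2, cm_zpowers, hconj] at hle'
      refine ⟨?_, t * g, hconj, below_unique (complete (G := G) hM) (isPair_bc hM hmax.1.1) hle' hbel₀.2.2⟩
      exact (hXrep z (hX z hzX)).unique ⟨hzX, IsConj.refl z⟩ ⟨hx₀X, isConj_iff.2 ⟨_, hconj⟩⟩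
    have hx₀e : x₀ ∈ X.erase 1 := Finset.mem_erase.2 ⟨hx₀1, hx₀X⟩
    have hset : {b : Set (IrrCharacter (cen x₀)) | IsInducedBlock M (cen x₀) b B} = {b₀} := by
      ext b
      refine ⟨fun hb => ?_, fun hb => hb ▸ hind₀⟩
      obtain ⟨-, h, hh, hcj⟩ := hmem hx₀e hb
      have hC : h ∈ Subgroup.centralizer (Subgroup.zpowers x₀ : Set G) := by
        rw [centralizer_zpowers_eq, Subgroup.mem_centralizer_singleton_iff]
        calc h * x₀ = h * x₀ * h⁻¹ * h := by group
          _ = _ := by rw [hh]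
      have hp := ((induced_iff_ofBlk hM hx₀k hb.1 hB).1 hb).2.1
      rw [mem_stabOf.1 (centralizer_le_stab hp hC).2] at hcj
      exact hsame hb.1 hind₀.1 hcj
    have hsum : ∑ x ∈ X.erase 1, r x = 1 := by
      rw [Finset.sum_eq_single x₀ (fun z hz hzne => ?_) (fun h => absurd hx₀e h)]
      · rw [hr]
        show ∑ᶠ b ∈ _, blockRank 2 b = 1
        rw [hset, finsum_mem_singleton, hl₀]
      · exact finsum_mem_eq_zero_of_forall_eq_zero fun b hb => absurd (hmem hz hb).1 hzne
    omega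

end CfsgLib.KleinFour
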