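import Cfsg.Agent.Blocks.Major
import Cfsg.Agent.Blocks.SumSqDegree

/-!
# Values of class functions vanishing on the singular elements are divisible by centralizers
-/

set_option autoImplicit false
set_option linter.unusedSectionVars false
set_option linter.style.haveILetI false

namespace CfsgLib.KleinFour

open Cfsg CfsgLib CfsgLib.Blocks CfsgLib.CharBasics Polynomial
open scoped ComplexConjugate

variable {p : ℕ} {M : Ideal AlgInt}

/-- A class function with local multiplicities vanishing on the singular elements. -/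
theorem div_centralizer_of_inner {A : Type*} [Group A] [Fintype A] (hM : IsPModular p M) {f : A → ℂ}
    (hf : IsClassFunction A f) (hv : ∀ z : A, p ∣ orderOf z → f z = 0)
    (hloc : ∀ χ : IrrCharacter A, MemLocalRing M (classInner f (χ : A → ℂ))) (y : A) :
    MemLocalRing M (f y / (Nat.card (Subgroup.centralizer ({y} : Set A)) : ℂ)) := by
  classical
  haveI := Fact.mk hM.1
  by_cases hy : p ∣ orderOf y
  · rw [hv y hy, zero_div]; exact memLocalRing_zero hM
  haveI : Fintype (Subgroup.centralizer ({y} : Set A)) := Fintype.ofFinite _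
  haveI : Fintype (IrrCharacter A) := @Fintype.ofFinite _ finite_irrCharacter
  haveI : Fintype (IrrCharacter (Subgroup.centralizer ({y} : Set A))) := @Fintype.ofFinite _ finite_irrCharacter
  obtain ⟨P⟩ : Nonempty (Sylow p (Subgroup.centralizer ({y} : Set A))) := inferInstance
  haveI : Fintype (P : Subgroup (Subgroup.centralizer ({y} : Set A))) := Fintype.ofFinite _
  have hnat : ∀ ξ : IrrCharacter (Subgroup.centralizer ({y} : Set A)), ∃ k : ℕ,
      classInner (fun s : (P : Subgroup (Subgroup.centralizer ({y} : Set A))) =>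
        (ξ : Subgroup.centralizer ({y} : Set A) → ℂ) s)
      ((oneChar : IrrCharacter ↥(P : Subgroup (Subgroup.centralizer ({y} : Set A)))) :
        ↥(P : Subgroup (Subgroup.centralizer ({y} : Set A))) → ℂ) = k := fun ξ =>
    classInner_character_nat (isCharacter_restrict (isCharacter_of_irr ξ.2) _) _
  choose k hk using hnat
  have hS : (Nat.card (P : Subgroup (Subgroup.centralizer ({y} : Set A))) : ℂ) ≠ 0 :=
    Nat.cast_ne_zero.2 Nat.card_pos.ne'
  have hsum : ∀ ξ : IrrCharacter (Subgroup.centralizer ({y} : Set A)),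
      ∑ s : (P : Subgroup (Subgroup.centralizer ({y} : Set A))), (ξ : Subgroup.centralizer ({y} : Set A) → ℂ) s =
        (Nat.card (P : Subgroup (Subgroup.centralizer ({y} : Set A))) : ℂ) * k ξ := fun ξ => by
    rw [← hk, show ((oneChar : IrrCharacter ↥(P : Subgroup (Subgroup.centralizer ({y} : Set A)))) :
      ↥(P : Subgroup (Subgroup.centralizer ({y} : Set A))) → ℂ) = fun _ => 1 from rfl,
      classInner_one, mul_inv_cancel_left₀ hS]
  set R : IrrCharacter A → ℂ := fun χ => ∑ ξ : IrrCharacter (Subgroup.centralizer ({y} : Set A)),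
    classInner (shiftFun y (χ : A → ℂ)) (ξ : Subgroup.centralizer ({y} : Set A) → ℂ) * k ξ with hR
  have hRl : ∀ χ, MemLocalRing M (R χ) := fun χ => memLocalRing_sum hM _ fun ξ _ => by
    rw [← aeval_shiftPoly]
    exact memLocalRing_mul hM (memLocalRing_aeval hM (orderOf_pos y).ne'
      (zetaRoot_prim (orderOf_pos y).ne').pow_eq_one _) (memLocalRing_natCast hM _)
  have hshift : ∀ χ : IrrCharacter A, ∑ s : (P : Subgroup (Subgroup.centralizer ({y} : Set A))),
      shiftFun y (χ : A → ℂ) s = (Nat.card (P : Subgroup (Subgroup.centralizer ({y} : Set A))) : ℂ) * R χ := by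
    intro χ
    conv_lhs =>
      enter [2, s]
      rw [classFun_expand (isClassFunction_shiftFun (isClassFunction (isCharacter_of_irr χ.2))), Finset.sum_apply]
    rw [Finset.sum_comm, hR, Finset.mul_sum]
    refine Finset.sum_congr rfl fun ξ _ => ?_
    simp only [Pi.smul_apply, smul_eq_mul, ← Finset.mul_sum, hsum]
    ring
  have hkey : f y = (Nat.card (P : Subgroup (Subgroup.centralizer ({y} : Set A))) : ℂ) *
      ∑ χ : IrrCharacter A, classInner f (χ : A → ℂ) * R χ := by
    have h1 : ∑ s : (P : Subgroup (Subgroup.centralizer ({y} : Set A))), shiftFun y f s = f y := by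
      rw [Finset.sum_eq_single 1]
      · simp [shiftFun]
      · intro s _ hs
        refine hv _ ?_
        have hc : Commute y ((s : Subgroup.centralizer ({y} : Set A)) : A) :=
          (Subgroup.mem_centralizer_singleton_iff.1 (s : Subgroup.centralizer ({y} : Set A)).2).symm
        obtain ⟨j, hj⟩ := IsPGroup.iff_orderOf.1 P.2 s
        have hps : orderOf ((s : Subgroup.centralizer ({y} : Set A)) : A) = p ^ j := by
          rw [Subgroup.orderOf_coe, Subgroup.orderOf_coe, hj]
        rw [hc.orderOf_mul_eq_mul_orderOf_of_coprime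
          (hps ▸ ((hM.1.coprime_iff_not_dvd.2 hy).symm.pow_right j)), hps]
        refine dvd_mul_of_dvd_right (dvd_pow_self p fun h0 => hs ?_) _
        rw [← orderOf_eq_one_iff, hj, h0, pow_zero]
      · simp
    rw [← h1]
    conv_lhs =>
      enter [2, s]
      rw [shiftFun, classFun_expand hf, Finset.sum_apply]
    rw [Finset.sum_comm, Finset.mul_sum]
    refine Finset.sum_congr rfl fun χ _ => ?_
    simp only [Pi.smul_apply, smul_eq_mul, ← Finset.mul_sum]
    rw [show ∑ s : (P : Subgroup (Subgroup.centralizer ({y} : Set A))),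
      (χ : A → ℂ) (y * ((s : Subgroup.centralizer ({y} : Set A)) : A)) = _ from hshift χ]
    ring
  set a := Nat.card (Subgroup.centralizer ({y} : Set A)) with ha
  have hcard : (a : ℂ) = (Nat.card (P : Subgroup (Subgroup.centralizer ({y} : Set A))) : ℂ) *
      ((a / p ^ a.factorization p : ℕ) : ℂ) := by
    rw [P.card_eq_multiplicity, ← ha, ← Nat.cast_mul, Nat.ordProj_mul_ordCompl_eq_self]
  rw [hkey, hcard, mul_div_mul_left _ _ hS, div_eq_mul_inv]
  exact memLocalRing_mul hM (memLocalRing_sum hM _ fun χ _ => memLocalRing_mul hM (hloc χ) (hRl χ))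
    (memLocalRing_natCast_inv hM (Nat.not_dvd_ordCompl hM.1 Nat.card_pos.ne'))

variable {G : Type*} [Group G] [Fintype G] {x : G} [Fintype (Subgroup.centralizer ({x} : Set G))]
  {b : Set (IrrCharacter (Subgroup.centralizer ({x} : Set G)))}

theorem memLocalRing_secVal (hM : IsPModular p M) (hx : ∃ k : ℕ, orderOf x = p ^ k) (χ : IrrCharacter G)
    (y : Subgroup.centralizer ({x} : Set G)) : MemLocalRing M (secVal p x b (χ : G → ℂ) y) := by
  classical
  haveI : Fintype (IrrCharacter (Subgroup.centralizer ({x} : Set G))) := @Fintype.ofFinite _ finite_irrCharacter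
  rw [secVal]
  split_ifs
  · exact memLocalRing_zero hM
  · rw [ZStar.blockPart_apply, ← Finset.sum_filter]
    refine memLocalRing_sum hM _ fun ξ _ => ?_
    rw [← aeval_shiftPoly]
    exact memLocalRing_mul hM (memLocalRing_aeval hM (orderOf_pos x).ne'
      (zetaRoot_prim (orderOf_pos x).ne').pow_eq_one _) (memLocalRing_of_isIntegral hM
        (isIntegral_apply (isCharacter_of_irr ξ.2) y))

/-- The subsection values are divisible by the centralizers up to the defect. -/
theorem div_centralizer_secVal (hM : IsPModular p M) (hb : IsPBlock M b) (χ : IrrCharacter G)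
    (y : Subgroup.centralizer ({x} : Set G)) :
    MemLocalRing M ((p : ℂ) ^ blockDefect p b * secVal p x b (χ : G → ℂ) y /
      (Nat.card (Subgroup.centralizer ({y} : Set (Subgroup.centralizer ({x} : Set G)))) : ℂ)) := by
  classical
  haveI : Fintype (IrrCharacter (Subgroup.centralizer ({x} : Set G))) := @Fintype.ofFinite _ finite_irrCharacter
  obtain ⟨ξ₀, h₀, hmin₀, he₀⟩ := exists_min_degExp hM hb
  set c := fun η : IrrCharacter (Subgroup.centralizer ({x} : Set G)) =>
    classInner (shiftFun x (χ : G → ℂ)) (η : Subgroup.centralizer ({x} : Set G) → ℂ) with hc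
  have hcl : ∀ η, MemLocalRing M (c η) := fun η => by
    rw [hc]
    show MemLocalRing M (classInner _ _)
    rw [← aeval_shiftPoly]
    exact memLocalRing_aeval hM (orderOf_pos x).ne' (zetaRoot_prim (orderOf_pos x).ne').pow_eq_one _
  set F := fun η : IrrCharacter (Subgroup.centralizer ({x} : Set G)) => fun w : Subgroup.centralizer ({x} : Set G) =>
    if p ∣ orderOf w then 0 else (η : Subgroup.centralizer ({x} : Set G) → ℂ) w with hF
  set f := fun w => (p : ℂ) ^ blockDefect p b * secVal p x b (χ : G → ℂ) w with hfdef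
  have hexp : f = ∑ η : IrrCharacter (Subgroup.centralizer ({x} : Set G)),
      (if η ∈ b then (p : ℂ) ^ blockDefect p b * c η else 0) • F η := by
    funext w
    simp only [hfdef, secVal, ZStar.blockPart_apply, Finset.sum_apply, Pi.smul_apply, smul_eq_mul, hF, hc]
    split_ifs with hw
    · simp
    · rw [Finset.mul_sum]
      refine Finset.sum_congr rfl fun η _ => ?_
      split_ifs <;> ring
  refine div_centralizer_of_inner hM (f := f) ?_ (fun z hz => ?_) (fun ξ => ?_) y
  · intro w d
    rw [hexp]
    simp only [Finset.sum_apply, Pi.smul_apply, hF]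
    refine Finset.sum_congr rfl fun η _ => ?_
    rw [show orderOf (d * w * d⁻¹) = orderOf w from
      orderOf_injective (MulAut.conj d).toMonoidHom (MulAut.conj d).injective w,
      isClassFunction (isCharacter_of_irr η.2) w d]
  · rw [hfdef]
    show _ * secVal p x b (χ : G → ℂ) z = 0
    rw [secVal, if_pos hz, mul_zero]
  · rw [hexp, classInner_sum_left]
    refine memLocalRing_sum hM _ fun η _ => ?_
    rw [classInner_smul_left]
    by_cases hη : η ∈ b
    swap
    · rw [if_neg hη, zero_mul]; exact memLocalRing_zero hM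
    rw [if_pos hη, mul_assoc, mul_comm (c η), ← mul_assoc]
    refine memLocalRing_mul hM ?_ (hcl η)
    simp only [hF]
    rw [regSum_eq_classInner, regSum_eq_regInt hM.1 (isCharacter_of_irr η.2) (isCharacter_of_irr ξ.2)]
    obtain ⟨q, hq⟩ : (p : ℤ) ^ degExp p ξ₀ ∣ regInt p (η : Subgroup.centralizer ({x} : Set G) → ℂ)
        (ξ : Subgroup.centralizer ({x} : Set G) → ℂ) :=
      (pow_dvd_pow _ (hmin₀ η hη)).trans (pow_dvd_regInt hM η ξ)
    convert memLocalRing_intCast hM q using 1
    rw [hq, blockDefect_eq he₀]
    have hp0 : (p : ℂ) ≠ 0 := Nat.cast_ne_zero.2 hM.1.ne_zero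
    have hle := degExp_le hM.1 ξ₀
    have hm0 := ordCompl_ne_zero_cast (G := Subgroup.centralizer ({x} : Set G)) p
    have hcard : (Nat.card (Subgroup.centralizer ({x} : Set G)) : ℂ) =
        (p : ℂ) ^ (Nat.card (Subgroup.centralizer ({x} : Set G))).factorization p *
          ((Nat.card (Subgroup.centralizer ({x} : Set G)) /
            p ^ (Nat.card (Subgroup.centralizer ({x} : Set G))).factorization p : ℕ) : ℂ) := by
      rw [← Nat.cast_pow, ← Nat.cast_mul, Nat.ordProj_mul_ordCompl_eq_self]
    rw [hcard, pow_sub₀ _ hp0 hle]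
    push_cast
    field_simp

/-- The columns of a subsection at a singular element are orthogonal to the regular columns. -/
theorem sum_secVal_regular (hM : IsPModular p M) (hb : IsPBlock M b) [Fintype (IrrCharacter G)]
    (hx : ∃ k : ℕ, orderOf x = p ^ k) (hx1 : x ≠ 1) (w : Subgroup.centralizer ({x} : Set G)) {y : G}
    (hy : ¬ p ∣ orderOf y) :
    ∑ χ : IrrCharacter G, (χ : G → ℂ) y * conj (secVal p x b (χ : G → ℂ) w) = 0 := by
  classical
  by_cases hw : p ∣ orderOf w
  · refine Finset.sum_eq_zero fun χ _ => ?_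
    rw [secVal, if_pos hw, map_zero, mul_zero]
  have h0 : ∀ z : Subgroup.centralizer ({x} : Set G), ¬ p ∣ orderOf z →
      ∑ χ : IrrCharacter G, (χ : G → ℂ) y * conj ((χ : G → ℂ) (x * (z : G))) = 0 := by
    intro z hz
    rw [sum_col, if_neg]
    intro h
    obtain ⟨c, hc⟩ := isConj_iff.1 h
    obtain ⟨k, hk⟩ := hx
    have hcm : Commute x (z : G) := (Subgroup.mem_centralizer_singleton_iff.1 z.2).symm
    apply hy
    rw [← orderOf_injective (MulAut.conj c).toMonoidHom (MulAut.conj c).injective y,
      show (MulAut.conj c).toMonoidHom y = c * y * c⁻¹ from rfl, hc,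
      hcm.orderOf_mul_eq_mul_orderOf_of_coprime (by
        rw [hk, Subgroup.orderOf_coe]; exact (hM.1.coprime_iff_not_dvd.2 hz).pow_left k), hk]
    refine dvd_mul_of_dvd_left (dvd_pow_self p fun h0 => hx1 ?_) _
    rw [← orderOf_eq_one_iff, hk, h0, pow_zero]
  calc ∑ χ : IrrCharacter G, (χ : G → ℂ) y * conj (secVal p x b (χ : G → ℂ) w)
      = ∑ z : Subgroup.centralizer ({x} : Set G), ∑ χ : IrrCharacter G,
          (Nat.card (Subgroup.centralizer ({x} : Set G)) : ℂ)⁻¹ * conj (blockKernel b w z) *
            ((χ : G → ℂ) y * (if p ∣ orderOf z then 0 else conj ((χ : G → ℂ) (x * (z : G))))) := by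
        rw [Finset.sum_comm]
        refine Finset.sum_congr rfl fun χ _ => ?_
        rw [secVal_eq_kernel hM hb _ hw, map_mul, map_inv₀, Complex.conj_natCast, map_sum, Finset.mul_sum,
          Finset.mul_sum]
        refine Finset.sum_congr rfl fun z _ => ?_
        rw [map_mul, apply_ite conj, map_zero, shiftFun]
        ring
    _ = 0 := Finset.sum_eq_zero fun z _ => by
        rw [← Finset.mul_sum]
        by_cases hz : p ∣ orderOf z
        · simp [hz]
        · simp only [hz, if_false]
          rw [h0 z hz, mul_zero]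

end CfsgLib.KleinFour
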