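import Cfsg.Agent.Blocks.KleinFour.Count

/-!
# A block with a four-group as defect group and its correspondent in the normalizer
-/

set_option autoImplicit false
set_option linter.unusedSectionVars false
set_option linter.style.haveILetI false

namespace CfsgLib.KleinFour

open Cfsg CfsgLib CfsgLib.Blocks CfsgLib.CharBasics CfsgLib.PairAlg

attribute [local instance] residueField residue_charP

universe u

variable {M : Ideal AlgInt} {G : Type u} [Group G] [Fintype G]

noncomputable local instance instFintypeSubgroupKleinPartner (K : Subgroup G) : Fintype K := Fintype.ofFinite K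

/-- The inducing block of a pair. -/
theorem induced_of_pairOf {p : ℕ} (hM : IsPModular p M) {B : Set (IrrCharacter G)} {P : Subgroup G}
    {e : Set (IrrCharacter (Subgroup.centralizer (P : Set G)))} (h : IsBrauerPairOf p M B P e) :
    IsInducedBlock M (Subgroup.centralizer (P : Set G)) e B := by
  haveI := Fact.mk hM.1
  obtain ⟨ξ, hξ⟩ := IsPBlock.nonempty hM h.1.2
  have h1 := (isBrauerPairOf_iff hM h.1.1 h.2.1 h.1.2 hξ).1 h
  refine ZStar.isInducedBlock_of_not_small hM h.1.1 (fun g => Subgroup.mem_centralizer_iff) h.1.2 h.2.1 hξ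
    fun hs => not_memLocalIdeal_one hM ?_
  simpa using memLocalIdeal_sub hM hs h1

/-- A correspondent in the normalizer of the four-group has the same invariants. -/
theorem partner_counts (hM : IsPModular 2 M) {B : Set (IrrCharacter G)} (hB : IsPBlock M B) {P : Subgroup G}
    (hPD : IsDefectGroup 2 M B P) (hV : IsKleinFour P) {N : Subgroup G} (hN : N = Subgroup.normalizer (P : Set G))
    {c : Set (IrrCharacter N)} (hcD : IsDefectGroup 2 M c (P.subgroupOf N)) (hc : IsInducedBlock M N c B) :
    ∃ (e : Set (IrrCharacter (Subgroup.centralizer (P : Set G))))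
      (e' : Set (IrrCharacter (Subgroup.centralizer ((P.subgroupOf N : Subgroup N) : Set N)))),
      IsInducedBlock M (Subgroup.centralizer (P : Set G)) e B ∧
      IsInducedBlock M (Subgroup.centralizer ((P.subgroupOf N : Subgroup N) : Set N)) e' c ∧
      IsKleinFour ↥(P.subgroupOf N) ∧ blockRank 2 B = blockRank 2 c := by
  classical
  haveI : Fact (Nat.Prime 2) := ⟨Nat.prime_two⟩
  have hPN : P ≤ N := hN ▸ Subgroup.le_normalizer
  have hCN : Subgroup.centralizer (P : Set G) ≤ N := hN ▸ Subgroup.centralizer_le_normalizer _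
  set P' := P.subgroupOf N with hP'
  haveI hV' : IsKleinFour P' :=
    { card_four := (Nat.card_congr (Subgroup.subgroupOfEquivOfLe hPN).toEquiv).trans hV.card_four
      exponent_two := (Monoid.exponent_eq_of_mulEquiv (Subgroup.subgroupOfEquivOfLe hPN)).trans hV.exponent_two }
  have hι : Function.Injective N.subtype := N.subtype_injective
  have hmap : P'.map N.subtype = P := Subgroup.map_subgroupOf_eq_of_le hPN
  have hPp : IsPGroup 2 P := IsPGroup.of_card (n := 2) (by rw [hV.card_four]; rfl)
  have hP'p : IsPGroup 2 P' := hPp.of_equiv (Subgroup.subgroupOfEquivOfLe hPN).symm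
  obtain ⟨hbr, -⟩ := (isDefectGroup_sub_iff hM hc.1 hPp hPN).1 hcD
  have hblkN : IsBlk N (bl hM N.subtype c) := by
    have := isBlk_bl hM N.subtype hι hc.1
    rwa [Subgroup.range_subtype] at this
  obtain ⟨a, ha⟩ := exists_pair (complete (G := G) hM) hblkN hPp hPN hbr
  have hblkC : IsBlk (Subgroup.centralizer (P : Set G)) a := CH_of_le hCN ▸ ha.2.1.blk
  have hrange : (N.subtype.comp (Subgroup.centralizer (P' : Set N)).subtype).range =
      Subgroup.centralizer (P : Set G) := by
    rw [range_centralizer _ hι, hmap, Subgroup.range_subtype, CH_of_le hCN]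
  obtain ⟨e', he', he'a⟩ := exists_bl hM _ (injective_comp _ hι (Subgroup.centralizer (P' : Set N))) hrange hblkC
  have hpair' : IsBrauerPairOf 2 M c P' e' := by
    refine (isBrauerPairOf_iff_ofBlk hM N.subtype hι hc.1 ⟨hP'p, he'⟩).2 ?_
    rw [Subgroup.range_subtype, hmap, he'a]
    exact ha
  have hind' := induced_of_pairOf hM hpair'
  -- the pair belongs to the block of the group
  set z := ZStar.res (Subgroup.centralizer (P' : Set N)) (ZStar.res N (blockElt B)) with hz
  have hzC := ZStar.isClassElt_res (isClassElt_blockElt B) N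
  have hzI := ZStar.isIntegralElt_res (isIntegralElt_blockElt hM hB) N
  have hup : up hM (N.subtype.comp (Subgroup.centralizer (P' : Set N)).subtype) z = Br P (bG hM B) := by
    ext g
    by_cases hg : g ∈ Subgroup.centralizer (P : Set G)
    · have hg' : g ∈ (N.subtype.comp (Subgroup.centralizer (P' : Set N)).subtype).range := hrange.symm ▸ hg
      obtain ⟨v, hv⟩ := hg'
      subst hv
      rw [coeff_up hM _ (injective_comp _ hι _), Br, coeff_cut_of_mem _ hg, hz, ZStar.coeff_res, ZStar.coeff_res,
        bG, bl, show (N.subtype.comp (Subgroup.centralizer (P' : Set N)).subtype) v = (MonoidHom.id G) ((v : N) : G) from rfl,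
        coeff_up hM _ id_injective]
    · rw [coeff_up_of_notMem hM _ _ (hrange.symm ▸ hg), Br, coeff_cut_of_notMem _ hg]
  have hfix : Fix P (bG hM B) := by
    have := (cenIn_up hM (MonoidHom.id G) id_injective (isClassElt_blockElt B)).2
    rw [range_id] at this
    exact this.mono le_top
  have hid : up hM (N.subtype.comp (Subgroup.centralizer (P' : Set N)).subtype) z * up hM (N.subtype.comp (Subgroup.centralizer (P' : Set N)).subtype) z =
      up hM (N.subtype.comp (Subgroup.centralizer (P' : Set N)).subtype) z := by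
    rw [hup, ← br_mul hPp hfix hfix]
    congr 1
    exact bl_idem hM _ hB
  obtain ⟨ξ, hξ⟩ := IsPBlock.nonempty hM he'
  obtain ⟨η, hη⟩ := IsPBlock.nonempty hM hc.1
  obtain ⟨χ, hχ⟩ := IsPBlock.nonempty hM hB
  have hω : MemLocalIdeal M (omega (ξ : (Subgroup.centralizer (P' : Set N)) → ℂ) z - 1) := by
    have h1 := ZStar.omega_res_induced hM hind' hξ hη hzC hzI
    have h2 := ZStar.omega_res_induced hM hc hη hχ (isClassElt_blockElt B) (isIntegralElt_blockElt hM hB)
    rw [omega_blockElt, if_pos hχ] at h2
    simpa [hz] using memLocalIdeal_add hM h1 h2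
  have hmul : a * Br P (bG hM B) = a := by
    rw [← hup, ← he'a]
    have hzI' := ZStar.isIntegralElt_res hzI (Subgroup.centralizer (P' : Set N))
    exact (bl_mul_eq_iff hM _ (injective_comp _ hι _) he' (ZStar.isClassElt_res hzC (Subgroup.centralizer (P' : Set N))) hzI' hid hξ).2
      ((rd_eq_one_iff hM (memLocalRing_omega hM ξ (ZStar.isClassElt_res hzC (Subgroup.centralizer (P' : Set N))) hzI')).2 hω)
  have hofG : OfBlk 2 ⊤ (bG hM B) P a := by
    refine ⟨?_, ⟨hPp, le_top, by rwa [CH_top]⟩, hmul⟩
    have := isBlk_bl hM (MonoidHom.id G) id_injective hB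
    rwa [range_id] at this
  obtain ⟨e, hPe, hea⟩ := exists_bc hM hofG.2.1
  have hpairG : IsBrauerPairOf 2 M B P e := (isBrauerPairOf_iff_bc hM hB hPe).2 (hea.symm ▸ hofG)
  have hindG := induced_of_pairOf hM hpairG
  refine ⟨e, e', hindG, hind', hV', ?_⟩
  obtain ⟨-, -, hl⟩ := klein_four_counts hM hB hPD hV hindG
  obtain ⟨-, -, hl'⟩ := klein_four_counts hM hc.1 hcD hV' hind'
  have hstab : (stab P' (bc hM P' e')).map N.subtype = stab P (bc hM P e) := by
    ext g
    constructor
    · rintro ⟨t, ht, rfl⟩
      have hst := (stabilizesBlock_bc_iff hM he' ht.1).2 ht.2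
      have h2 := ((stabilizesBlock_iff_cj hM N.subtype hι he').1 hst).2
      rw [he'a] at h2
      refine ⟨?_, ?_⟩
      · show (t : G) ∈ Subgroup.normalizer (P : Set G)
        rw [← hN]; exact t.2
      · rw [hea]; exact h2
    · intro hg
      have hgN : g ∈ N := hN ▸ hg.1
      have hn : (⟨g, hgN⟩ : N) ∈ Subgroup.normalizer (P' : Set N) := by
        refine Subgroup.mem_normalizer_iff.2 fun r => ?_
        rw [hP', Subgroup.mem_subgroupOf, Subgroup.mem_subgroupOf]
        exact Subgroup.mem_normalizer_iff.1 hg.1 (r : G)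
      refine ⟨⟨g, hgN⟩, ⟨hn, (stabilizesBlock_bc_iff hM he' hn).1
        ((stabilizesBlock_iff_cj hM N.subtype hι he').2 ⟨le_normalizer_centralizer P' hn, ?_⟩)⟩, rfl⟩
      rw [he'a, ← hea]
      exact hg.2
  have hC : (Subgroup.centralizer (P' : Set N)).map N.subtype = Subgroup.centralizer (P : Set G) := by
    rw [← hrange, MonoidHom.range_comp, Subgroup.range_subtype]
  rw [hl, hl', ← hstab, ← hC]
  exact Subgroup.relIndex_map_map_of_injective _ _ hι

end CfsgLib.KleinFour
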