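import Cfsg.Agent.Blocks.KleinFour.Signs
import Cfsg.Agent.Blocks.KleinFour.Partner

/-!
# A perfect isometry between blocks with four-groups as defect groups
-/

set_option autoImplicit false
set_option linter.unusedSectionVars false
set_option linter.style.haveILetI false

namespace CfsgLib.KleinFour

open Cfsg CfsgLib CfsgLib.Blocks CfsgLib.CharBasics CfsgLib.PairAlg CfsgLib.NilBlock
open scoped ComplexConjugate

attribute [local instance] residueField residue_charP

universe u

variable {M : Ideal AlgInt}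

section Decomp

variable {G : Type u} [Group G] [Fintype G]

noncomputable local instance instFintypeSubgroupKleinIsometry (K : Subgroup G) : Fintype K := Fintype.ofFinite K

/-- What is used of a block with a four-group as defect group. -/
structure Frame (M : Ideal AlgInt) (B : Set (IrrCharacter G)) [Fintype (IrrCharacter G)] : Prop where
  card : Nat.card B = 4
  flat : blockRank 2 B = 1 → ∃ φ : G → ℂ,
    (∀ χ ∈ B, ∀ y : G, ¬ 2 ∣ orderOf y → (χ : G → ℂ) y = φ y) ∧ φ 1 ≠ 0
  decomp : ∀ g : G, 2 ∣ orderOf g → ∃ (n : ℕ) (s : Fin n → IrrCharacter G → ℤ) (f : Fin n → ℂ),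
    (∀ i, SignCol B (s i) ∧ MemLocalRing M (f i) ∧
      MemLocalRing M (4 * f i / (Nat.card (Subgroup.centralizer ({g} : Set G)) : ℂ))) ∧
    ∀ χ ∈ B, (χ : G → ℂ) g = ∑ i, (s i χ : ℂ) * f i
  witness : ∃ s, SignCol B s

theorem frame_of_klein (hM : IsPModular 2 M) {B : Set (IrrCharacter G)} (hB : IsPBlock M B) {P : Subgroup G}
    (hPD : IsDefectGroup 2 M B P) (hV : IsKleinFour P) {c : Set (IrrCharacter (Subgroup.centralizer (P : Set G)))}
    (hc : IsInducedBlock M (Subgroup.centralizer (P : Set G)) c B) [Fintype (IrrCharacter G)] :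
    Frame M B := by
  classical
  haveI : Fact (Nat.Prime 2) := ⟨Nat.prime_two⟩
  haveI : ∀ K : Subgroup G, Fintype (IrrCharacter K) := fun K => @Fintype.ofFinite _ finite_irrCharacter
  obtain ⟨-, hk, -⟩ := klein_four_counts hM hB hPD hV hc
  have hdB : blockDefect 2 B = 2 := by
    have h := card_defectGroup hM hB hPD
    rw [hV.card_four] at h
    exact Nat.pow_right_injective le_rfl (a₁ := blockDefect 2 B) (a₂ := 2) (by simpa using h.symm)
  refine ⟨hk, fun hl => rank_one_flat hM hB hk hl hdB, fun g hg => ?_, ?_⟩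
  · obtain ⟨x, y, hxy, hcom, hx, hy, -, -⟩ := ZStar.exists_pPart (p := 2) Nat.prime_two g
    have hx1 : x ≠ 1 := by
      rintro rfl
      rw [one_mul] at hxy
      exact hy (hxy ▸ hg)
    let w : cen x := ⟨y, Subgroup.mem_centralizer_singleton_iff.2 hcom.eq.symm⟩
    have hw : ¬ 2 ∣ orderOf w := by rwa [← Subgroup.orderOf_coe]
    set S := (blockFinset M (cen x)).filter (fun b => IsInducedBlock M (cen x) b B) with hS
    have hdata : ∀ b : S, ∃ (s : IrrCharacter G → ℤ) (F : ℂ), SignCol B s ∧ MemLocalRing M F ∧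
        MemLocalRing M (4 * F / (Nat.card (Subgroup.centralizer ({g} : Set G)) : ℂ)) ∧
        ∀ χ : IrrCharacter G, secVal 2 x (b : Set (IrrCharacter (cen x))) (χ : G → ℂ) w = (s χ : ℂ) * F := by
      rintro ⟨b, hb⟩
      obtain ⟨-, hind⟩ := Finset.mem_filter.1 hb
      obtain ⟨ho, hl, hd⟩ := local_data hM hB hPD hV hc hx hx1 hind
      obtain ⟨s, χ₁, hs, hprop⟩ := exists_signs hM hk ho hind hl hd hdB
      refine ⟨s, secVal 2 x b (χ₁ : G → ℂ) w, hs, memLocalRing_secVal hM hx χ₁ w, ?_, fun χ => hprop χ w⟩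
      have h := div_centralizer_secVal hM hind.1 χ₁ w
      rw [hd, ← card_centralizer_mul hx hM.1 hw] at h
      rw [← hxy]
      convert h using 2
      norm_num
    choose s F hs hF hF4 hsF using hdata
    refine ⟨S.card, fun i => s (S.equivFin.symm i), fun i => F (S.equivFin.symm i),
      fun i => ⟨hs _, hF _, hF4 _⟩, fun χ hχ => ?_⟩
    rw [Equiv.sum_comp S.equivFin.symm (fun b => (s b χ : ℂ) * F b), ← hxy]
    have h := apply_eq_sum_secVal hM hx hB χ hw
    rw [if_pos hχ] at h
    rw [← Finset.sum_coe_sort] at h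
    exact h.symm.trans (Finset.sum_congr rfl fun b _ => hsF b χ)
  · obtain ⟨x₀, hx₀P, hx₀1⟩ : ∃ x ∈ P, x ≠ (1 : G) := by
      by_contra hcon
      push Not at hcon
      have h := hV.card_four
      rw [(Subgroup.eq_bot_iff_forall _).2 hcon, Subgroup.card_bot] at h
      omega
    have hmax := isMaximal_of_induced hM hPD hc
    obtain ⟨b, hbel⟩ := exists_bel hM hmax hx₀P
    have hxk := exists_orderOf_eq_of_mem hmax.1.1.1 hx₀P
    have hind := (induced_iff_ofBlk hM hxk hbel.2.1 hB).2 (ofBlk_of_below hM hmax hbel.2.2)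
    obtain ⟨ho, hl, hd⟩ := local_data hM hB hPD hV hc hxk hx₀1 hind
    obtain ⟨s, -, hs, -⟩ := exists_signs hM hk ho hind hl hd hdB
    exact ⟨s, hs⟩

theorem SignCol.sum_eq_zero [Fintype (IrrCharacter G)] {B : Set (IrrCharacter G)} {s : IrrCharacter G → ℤ}
    (hs : SignCol B s) {φ : G → ℂ} (hφ : ∀ χ ∈ B, ∀ y : G, ¬ 2 ∣ orderOf y → (χ : G → ℂ) y = φ y)
    (hφ1 : φ 1 ≠ 0) : ∑ χ : IrrCharacter G, s χ = 0 := by
  classical
  have h1 : ¬ 2 ∣ orderOf (1 : G) := by rw [orderOf_one]; norm_num
  have h := hs.orth 1 h1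
  rw [Finset.sum_congr rfl (g := fun χ : IrrCharacter G => (s χ : ℂ) * φ 1) fun χ _ => by
    by_cases hχ : χ ∈ B
    · rw [hφ χ hχ 1 h1]
    · rw [hs.zero χ hχ, Int.cast_zero, zero_mul, zero_mul], ← Finset.sum_mul] at h
  exact_mod_cast (mul_eq_zero.1 h).resolve_right hφ1

end Decomp

section Pair

variable {G : Type u} [Group G] [Fintype G] {H : Type u} [Group H] [Fintype H]
  [Fintype (IrrCharacter G)] [Fintype (IrrCharacter H)]

/-- A sum over one block, read in the other through a bijection. -/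
theorem sum_reindex {B : Set (IrrCharacter G)} {c : Set (IrrCharacter H)} {I : IrrCharacter H → IrrCharacter G}
    (hI : Set.BijOn I c B) [DecidablePred (· ∈ B)] [DecidablePred (· ∈ c)] {A : Type*} [AddCommMonoid A]
    (F : IrrCharacter G → A) (hF : ∀ χ ∉ B, F χ = 0) :
    ∑ η ∈ Finset.univ.filter (· ∈ c), F (I η) = ∑ χ : IrrCharacter G, F χ := by
  rw [← Finset.sum_subset (Finset.subset_univ (Finset.univ.filter (· ∈ B))) fun χ _ h => hF χ (by simpa using h)]
  refine Finset.sum_nbij I (fun η hη => ?_) (fun a ha b hb h => ?_) (fun χ hχ => ?_) (fun _ _ => rfl)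
  · simpa using hI.mapsTo (Finset.mem_filter.1 hη).2
  · exact hI.injOn (Finset.mem_filter.1 ha).2 (Finset.mem_filter.1 hb).2 h
  · obtain ⟨η, hη, rfl⟩ := hI.surjOn (Finset.mem_filter.1 hχ).2
    exact ⟨η, Finset.mem_filter.2 ⟨Finset.mem_univ η, hη⟩, rfl⟩

open scoped Classical in
/-- Signs making sign columns of one block into sign columns of the other. -/
theorem exists_matching {B : Set (IrrCharacter G)} {c : Set (IrrCharacter H)} (hfB : Frame M B) (hfc : Frame M c)
    (hrank : blockRank 2 B = blockRank 2 c) (hl : blockRank 2 B = 1 ∨ blockRank 2 B = 3) :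
    ∃ (I : IrrCharacter H → IrrCharacter G) (ε : IrrCharacter H → ℤ),
      Set.BijOn I c B ∧ (∀ η ∈ c, ε η = 1 ∨ ε η = -1) ∧
      (∀ s, SignCol B s → ∀ t, SignCol c t → (4 : ℤ) ∣ ∑ η : IrrCharacter H, ε η * s (I η) * t η) ∧
      (∀ s, SignCol B s → ∀ y : H, ¬ 2 ∣ orderOf y →
        ∑ η : IrrCharacter H, (if η ∈ c then (ε η : ℂ) * (s (I η) : ℂ) * (η : H → ℂ) y else 0) = 0) ∧
      (∀ t, SignCol c t → ∀ x : G, ¬ 2 ∣ orderOf x →
        ∑ η : IrrCharacter H, (ε η : ℂ) * (t η : ℂ) * (I η : G → ℂ) x = 0) := by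
  classical
  obtain ⟨e⟩ : Nonempty (c ≃ B) := ⟨Fintype.equivOfCardEq (by
    rw [← Nat.card_eq_fintype_card, ← Nat.card_eq_fintype_card, hfc.card, hfB.card])⟩
  obtain ⟨χ₀, -⟩ : B.Nonempty := by
    rw [← Set.nonempty_coe_sort, ← not_isEmpty_iff]
    intro h
    have := hfB.card
    simp at this
  set I : IrrCharacter H → IrrCharacter G := fun η => if h : η ∈ c then (e ⟨η, h⟩ : IrrCharacter G) else χ₀ with hIdef
  have hIe : ∀ (η : IrrCharacter H) (h : η ∈ c), I η = (e ⟨η, h⟩ : IrrCharacter G) := fun η h => by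
    simp only [hIdef, dif_pos h]
  have hI : Set.BijOn I c B := by
    refine ⟨fun η hη => by rw [hIe η hη]; exact (e ⟨η, hη⟩).2, fun a ha b hb h => ?_, fun χ hχ => ?_⟩
    · rw [hIe a ha, hIe b hb] at h
      exact congrArg Subtype.val (e.injective (Subtype.ext h))
    · refine ⟨(e.symm ⟨χ, hχ⟩ : IrrCharacter H), (e.symm ⟨χ, hχ⟩).2, ?_⟩
      rw [hIe _ (e.symm ⟨χ, hχ⟩).2]
      simp
  rcases hl with hl | hl
  · -- one regular column
    obtain ⟨φ, hφ, hφ1⟩ := hfB.flat hl
    obtain ⟨ψ, hψ, hψ1⟩ := hfc.flat (hrank ▸ hl)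
    refine ⟨I, fun _ => 1, hI, fun _ _ => Or.inl rfl, fun s hs t ht => ?_, fun s hs y hy => ?_, fun t ht x hx => ?_⟩
    · rw [← Finset.sum_subset (Finset.subset_univ (Finset.univ.filter (· ∈ c))) fun η _ h => by
        rw [ht.zero η (by simpa using h), mul_zero]]
      simp only [one_mul]
      refine four_dvd_signs _ ?_ _ _ (fun η hη => hs.unit _ (hI.mapsTo (Finset.mem_filter.1 hη).2))
        (fun η hη => ht.unit η (Finset.mem_filter.1 hη).2) ?_ ?_
      · rw [← hfc.card, Nat.card_eq_fintype_card (α := c), ← Fintype.card_subtype]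
      · rw [sum_reindex hI s hs.zero, hs.sum_eq_zero hφ hφ1]
      · rw [Finset.sum_subset (Finset.subset_univ _) fun η _ h => ht.zero η (by simpa using h),
          ht.sum_eq_zero hψ hψ1]
    · rw [← Finset.sum_filter, Finset.sum_congr rfl (g := fun η : IrrCharacter H => (s (I η) : ℂ) * ψ y)
        fun η hη => by rw [hψ η (Finset.mem_filter.1 hη).2 y hy, Int.cast_one, one_mul],
        ← Finset.sum_mul, sum_reindex hI (fun χ => (s χ : ℂ)) (fun χ h => by rw [hs.zero χ h, Int.cast_zero]),
        ← Int.cast_sum, hs.sum_eq_zero hφ hφ1, Int.cast_zero, zero_mul]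
    · rw [← Finset.sum_subset (Finset.subset_univ (Finset.univ.filter (· ∈ c))) fun η _ h => by
        rw [ht.zero η (by simpa using h), Int.cast_zero, mul_zero, zero_mul],
        Finset.sum_congr rfl (g := fun η : IrrCharacter H => (t η : ℂ) * φ x)
        fun η hη => by rw [hφ _ (hI.mapsTo (Finset.mem_filter.1 hη).2) x hx, Int.cast_one, one_mul],
        ← Finset.sum_mul, Finset.sum_subset (Finset.subset_univ _) fun η _ h => by
          rw [ht.zero η (by simpa using h), Int.cast_zero],
        ← Int.cast_sum, ht.sum_eq_zero hψ hψ1, Int.cast_zero, zero_mul]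
  · -- three regular columns
    obtain ⟨s₀, hs₀⟩ := hfB.witness
    obtain ⟨t₀, ht₀⟩ := hfc.witness
    refine ⟨I, fun η => s₀ (I η) * t₀ η, hI, fun η hη => ?_, fun s hs t ht => ?_, fun s hs y hy => ?_,
      fun t ht x hx => ?_⟩
    · rcases hs₀.unit _ (hI.mapsTo hη) with h | h <;> rcases ht₀.unit η hη with h' | h' <;> simp [h, h']
    · obtain ⟨u, -, hsu⟩ := signCol_unique hfB.card hl hs hs₀
      obtain ⟨v, -, htv⟩ := signCol_unique hfc.card (hrank ▸ hl) ht ht₀
      have hone : ∀ η ∈ c, s₀ (I η) * s₀ (I η) = 1 ∧ t₀ η * t₀ η = 1 := fun η hη => by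
        constructor
        · rcases hs₀.unit _ (hI.mapsTo hη) with h | h <;> simp [h]
        · rcases ht₀.unit η hη with h | h <;> simp [h]
      rw [← Finset.sum_subset (Finset.subset_univ (Finset.univ.filter (· ∈ c))) fun η _ h => by
        rw [ht.zero η (by simpa using h), mul_zero],
        Finset.sum_congr rfl (g := fun _ => u * v) fun η hη => by
          obtain ⟨h1, h2⟩ := hone η (Finset.mem_filter.1 hη).2
          rw [hsu, htv]
          linear_combination (u * v * (t₀ η * t₀ η)) * h1 + (u * v) * h2,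
        Finset.sum_const, show (Finset.univ.filter (· ∈ c)).card = 4 by
          rw [← hfc.card, Nat.card_eq_fintype_card (α := c), ← Fintype.card_subtype]]
      exact ⟨u * v, by simp⟩
    · obtain ⟨u, -, hsu⟩ := signCol_unique hfB.card hl hs hs₀
      rw [Finset.sum_congr rfl (g := fun η : IrrCharacter H => (u : ℂ) * ((t₀ η : ℂ) * (η : H → ℂ) y)) fun η _ => ?_,
        ← Finset.mul_sum, ht₀.orth y hy, mul_zero]
      by_cases hη : η ∈ c
      · rw [if_pos hη, hsu]
        rcases hs₀.unit _ (hI.mapsTo hη) with h | h <;> rw [h] <;> push_cast <;> rw [h] <;> push_cast <;> ring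
      · rw [if_neg hη, ht₀.zero η hη, Int.cast_zero, zero_mul, mul_zero]
    · obtain ⟨v, -, htv⟩ := signCol_unique hfc.card (hrank ▸ hl) ht ht₀
      rw [← Finset.sum_subset (Finset.subset_univ (Finset.univ.filter (· ∈ c))) fun η _ h => by
        rw [ht.zero η (by simpa using h), Int.cast_zero, mul_zero, zero_mul],
        Finset.sum_congr rfl (g := fun η : IrrCharacter H => (v : ℂ) * ((s₀ (I η) : ℂ) * (I η : G → ℂ) x))
        fun η hη => by
          rw [htv]
          rcases ht₀.unit η (Finset.mem_filter.1 hη).2 with h | h <;> rw [h] <;> push_cast <;> rw [h] <;>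
            push_cast <;> ring,
        ← Finset.mul_sum, sum_reindex hI (fun χ => (s₀ χ : ℂ) * (χ : G → ℂ) x)
          (fun χ h => by rw [hs₀.zero χ h, Int.cast_zero, zero_mul]), hs₀.orth x hx, mul_zero]

open scoped Classical in
theorem perfect_of_matching (hM : IsPModular 2 M) {B : Set (IrrCharacter G)} {c : Set (IrrCharacter H)}
    (hfB : Frame M B) (hfc : Frame M c) {I : IrrCharacter H → IrrCharacter G} {ε : IrrCharacter H → ℤ}
    (hI : Set.BijOn I c B)
    (hdiv : ∀ s, SignCol B s → ∀ t, SignCol c t → (4 : ℤ) ∣ ∑ η : IrrCharacter H, ε η * s (I η) * t η)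
    (horB : ∀ s, SignCol B s → ∀ y : H, ¬ 2 ∣ orderOf y →
      ∑ η : IrrCharacter H, (if η ∈ c then (ε η : ℂ) * (s (I η) : ℂ) * (η : H → ℂ) y else 0) = 0)
    (horc : ∀ t, SignCol c t → ∀ x : G, ¬ 2 ∣ orderOf x →
      ∑ η : IrrCharacter H, (ε η : ℂ) * (t η : ℂ) * (I η : G → ℂ) x = 0) :
    IsPerfectFun 2 M (signedBijectionKernel c I ε) := by
  classical
  set μ := signedBijectionKernel c I ε with hμ
  have hμe : ∀ (g : G) (h : H), μ g h = ∑ η : IrrCharacter H,
      if η ∈ c then (ε η : ℂ) * (I η : G → ℂ) g * (η : H → ℂ) h else 0 := fun g h => by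
    rw [hμ, signedBijectionKernel, finsum_mem_def, finsum_eq_sum_of_fintype]
    exact Finset.sum_congr rfl fun η _ => by rw [Set.indicator_apply]
  have hmix1 : ∀ (g : G) (h : H), 2 ∣ orderOf g → ¬ 2 ∣ orderOf h → μ g h = 0 := by
    intro g h hg hh
    obtain ⟨n, s, f, hsf, hval⟩ := hfB.decomp g hg
    rw [hμe, Finset.sum_congr rfl (g := fun η : IrrCharacter H => ∑ i, f i *
      (if η ∈ c then (ε η : ℂ) * (s i (I η) : ℂ) * (η : H → ℂ) h else 0)) fun η _ => ?_, Finset.sum_comm]
    · exact Finset.sum_eq_zero fun i _ => by rw [← Finset.mul_sum, horB _ (hsf i).1 h hh, mul_zero]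
    split_ifs with hη
    · rw [hval _ (hI.mapsTo hη), Finset.mul_sum, Finset.sum_mul]
      exact Finset.sum_congr rfl fun i _ => by ring
    · simp
  have hmix2 : ∀ (g : G) (h : H), ¬ 2 ∣ orderOf g → 2 ∣ orderOf h → μ g h = 0 := by
    intro g h hg hh
    obtain ⟨n, t, f, htf, hval⟩ := hfc.decomp h hh
    rw [hμe, Finset.sum_congr rfl (g := fun η : IrrCharacter H => ∑ i, f i *
      ((ε η : ℂ) * (t i η : ℂ) * (I η : G → ℂ) g)) fun η _ => ?_, Finset.sum_comm]
    · exact Finset.sum_eq_zero fun i _ => by rw [← Finset.mul_sum, horc _ (htf i).1 g hg, mul_zero]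
    split_ifs with hη
    · rw [hval η hη, Finset.mul_sum]
      exact Finset.sum_congr rfl fun i _ => by ring
    · exact (Finset.sum_eq_zero fun i _ => by rw [(htf i).1.zero η hη]; push_cast; ring).symm
  have hloc : ∀ {A : Type u} [Group A] [Fintype A] (χ : IrrCharacter A) (a : A),
      MemLocalRing M ((χ : A → ℂ) a) := fun χ a =>
    memLocalRing_of_isIntegral hM (isIntegral_apply (isCharacter_of_irr χ.2) a)
  intro g h
  by_cases hg : 2 ∣ orderOf g <;> by_cases hh : 2 ∣ orderOf h
  · obtain ⟨n, s, f, hsf, hvg⟩ := hfB.decomp g hg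
    obtain ⟨m, t, k, htk, hvh⟩ := hfc.decomp h hh
    choose q hq using fun (i : Fin n) (j : Fin m) => hdiv _ (hsf i).1 _ (htk j).1
    have hexp : μ g h = ∑ i, ∑ j, 4 * (q i j : ℂ) * f i * k j := by
      rw [hμe, Finset.sum_congr rfl (g := fun η : IrrCharacter H => ∑ i, ∑ j,
        ((ε η * s i (I η) * t j η : ℤ) : ℂ) * (f i * k j)) fun η _ => ?_, Finset.sum_comm]
      · refine Finset.sum_congr rfl fun i _ => ?_
        rw [Finset.sum_comm]
        refine Finset.sum_congr rfl fun j _ => ?_
        rw [← Finset.sum_mul, ← Int.cast_sum, hq]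
        push_cast; ring
      split_ifs with hη
      · rw [hvg _ (hI.mapsTo hη), hvh η hη, mul_assoc, Finset.sum_mul_sum, Finset.mul_sum]
        refine Finset.sum_congr rfl fun i _ => ?_
        rw [Finset.mul_sum]
        exact Finset.sum_congr rfl fun j _ => by push_cast; ring
      · exact (Finset.sum_eq_zero fun i _ => Finset.sum_eq_zero fun j _ => by
          rw [(htk j).1.zero η hη]; push_cast; ring).symm
    refine ⟨?_, ?_, Or.inl ⟨fun hr => absurd hg hr, fun hr => absurd hh hr⟩⟩
    · rw [hexp, Finset.sum_div]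
      refine memLocalRing_sum hM _ fun i _ => ?_
      rw [Finset.sum_div]
      refine memLocalRing_sum hM _ fun j _ => ?_
      rw [show 4 * (q i j : ℂ) * f i * k j / (Nat.card (Subgroup.centralizer ({g} : Set G)) : ℂ) =
        ((q i j : ℂ) * k j) * (4 * f i / (Nat.card (Subgroup.centralizer ({g} : Set G)) : ℂ)) by ring]
      exact memLocalRing_mul hM (memLocalRing_mul hM (memLocalRing_intCast hM _) (htk j).2.1) (hsf i).2.2
    · rw [hexp, Finset.sum_div]
      refine memLocalRing_sum hM _ fun i _ => ?_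
      rw [Finset.sum_div]
      refine memLocalRing_sum hM _ fun j _ => ?_
      rw [show 4 * (q i j : ℂ) * f i * k j / (Nat.card (Subgroup.centralizer ({h} : Set H)) : ℂ) =
        ((q i j : ℂ) * f i) * (4 * k j / (Nat.card (Subgroup.centralizer ({h} : Set H)) : ℂ)) by ring]
      exact memLocalRing_mul hM (memLocalRing_mul hM (memLocalRing_intCast hM _) (hsf i).2.1) (htk j).2.2
  · have h0 := hmix1 g h hg hh
    exact ⟨by rw [h0, zero_div]; exact memLocalRing_zero hM, by rw [h0, zero_div]; exact memLocalRing_zero hM, Or.inr h0⟩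
  · have h0 := hmix2 g h hg hh
    exact ⟨by rw [h0, zero_div]; exact memLocalRing_zero hM, by rw [h0, zero_div]; exact memLocalRing_zero hM, Or.inr h0⟩
  · refine ⟨?_, ?_, Or.inl ⟨fun _ => hh, fun _ => hg⟩⟩
    · refine div_centralizer_of_inner hM (f := fun a => μ a h) ?_ (fun z hz => hmix1 z h hz hh) (fun χ => ?_) g
      · intro a d
        simp only [hμe]
        refine Finset.sum_congr rfl fun η _ => ?_
        rw [isClassFunction (isCharacter_of_irr (I η).2) a d]
      · rw [show (fun a => μ a h) = ∑ η : IrrCharacter H,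
            (if η ∈ c then (ε η : ℂ) * (η : H → ℂ) h else 0) • (I η : G → ℂ) by
          funext a
          rw [hμe, Finset.sum_apply]
          exact Finset.sum_congr rfl fun η _ => by rw [Pi.smul_apply, smul_eq_mul]; split_ifs <;> ring,
          classInner_sum_left]
        refine memLocalRing_sum hM _ fun η _ => ?_
        rw [classInner_smul_left]
        refine memLocalRing_mul hM ?_ ?_
        · split_ifs
          · exact memLocalRing_mul hM (memLocalRing_intCast hM _) (hloc η h)
          · exact memLocalRing_zero hM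
        · rw [classInner_irr]
          split_ifs
          · exact memLocalRing_one hM
          · exact memLocalRing_zero hM
    · refine div_centralizer_of_inner hM (f := fun a => μ g a) ?_ (fun z hz => hmix2 g z hg hz) (fun χ => ?_) h
      · intro a d
        simp only [hμe]
        refine Finset.sum_congr rfl fun η _ => ?_
        rw [isClassFunction (isCharacter_of_irr η.2) a d]
      · rw [show (fun a => μ g a) = ∑ η : IrrCharacter H,
            (if η ∈ c then (ε η : ℂ) * (I η : G → ℂ) g else 0) • (η : H → ℂ) by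
          funext a
          rw [hμe, Finset.sum_apply]
          exact Finset.sum_congr rfl fun η _ => by rw [Pi.smul_apply, smul_eq_mul]; split_ifs <;> ring,
          classInner_sum_left]
        refine memLocalRing_sum hM _ fun η _ => ?_
        rw [classInner_smul_left]
        refine memLocalRing_mul hM ?_ ?_
        · split_ifs
          · exact memLocalRing_mul hM (memLocalRing_intCast hM _) (hloc (I η) g)
          · exact memLocalRing_zero hM
        · rw [classInner_irr]
          split_ifs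
          · exact memLocalRing_one hM
          · exact memLocalRing_zero hM

end Pair

/-- Blocks with four-groups as defect groups and their correspondents in the normalizer. -/
theorem exists_perfect_isometry {G : Type u} [Group G] [Fintype G] (hM : IsPModular 2 M)
    {B : Set (IrrCharacter G)} (hB : IsPBlock M B) {P : Subgroup G}
    (hPD : IsDefectGroup 2 M B P) (hV : IsKleinFour P) {N : Subgroup G} (hN : N = Subgroup.normalizer (P : Set G))
    {c : Set (IrrCharacter N)} (hcD : IsDefectGroup 2 M c (P.subgroupOf N)) (hc : IsInducedBlock M N c B) :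
    ∃ (I : IrrCharacter N → IrrCharacter G) (ε : IrrCharacter N → ℤ), IsPerfectIsometry 2 M c B I ε := by
  haveI : Fintype N := Fintype.ofFinite _
  haveI : Fintype (IrrCharacter G) := @Fintype.ofFinite _ finite_irrCharacter
  haveI : Fintype (IrrCharacter N) := @Fintype.ofFinite _ finite_irrCharacter
  obtain ⟨e, e', he, he', hV', hrank⟩ := partner_counts hM hB hPD hV hN hcD hc
  have hfB := frame_of_klein hM hB hPD hV he
  have hfc := frame_of_klein hM hc.1 hcD hV' he'
  obtain ⟨h13, -, hl⟩ := klein_four_counts hM hB hPD hV he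
  obtain ⟨I, ε, hI, hε, h1, h2, h3⟩ := exists_matching hfB hfc hrank (hl ▸ h13)
  exact ⟨I, ε, hI, hε, perfect_of_matching hM hfB hfc hI h1 h2 h3⟩

end CfsgLib.KleinFour
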