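import Cfsg.Agent.Blocks.KleinFour.Column
import Cfsg.Agent.Blocks.NilBlock.Induction
import Cfsg.Agent.Blocks.PairAlg.Local
import Cfsg.Agent.Fusion.Abelian
import Cfsg.Agent.S4511
import Cfsg.Agent.S4650

/-!
# Blocks with a four-group as defect group
-/

set_option autoImplicit false
set_option linter.unusedSectionVars false
set_option linter.style.haveILetI false

namespace CfsgLib.KleinFour

open Cfsg CfsgLib.Blocks CfsgLib.PairAlg CfsgLib.NilBlock

attribute [local instance] residueField residue_charP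

universe u

variable {M : Ideal AlgInt} {G : Type u} [Group G] [Fintype G]

noncomputable local instance instFintypeSubgroupKleinFour (K : Subgroup G) : Fintype K := Fintype.ofFinite K

/-- An automorphism of odd order dividing three of a four-element set, fixing one point, fixes all others. -/
theorem perm_facts {P : Type*} [Group P] [Fintype P] (h4 : Fintype.card P = 4) (α : MulAut P) (h3 : α ^ 3 = 1)
    (hα : α ≠ 1) {x : P} (hx : x ≠ 1) : α x ≠ x ∧ ∀ y, y ≠ 1 → y = x ∨ y = α x ∨ y = α (α x) := by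
  classical
  have e3 : ∀ z, α (α (α z)) = z := fun z => by
    conv_rhs => rw [← MulAut.one_apply (M := P) z, ← h3]
    rfl
  have cover : ∀ a b c : P, a ≠ 1 → b ≠ 1 → c ≠ 1 → a ≠ b → a ≠ c → b ≠ c →
      ∀ y, y ≠ 1 → y = a ∨ y = b ∨ y = c := by
    intro a b c ha hb hc hab hac hbc y hy
    have h : ({1, a, b, c} : Finset P) = Finset.univ := by
      refine Finset.eq_univ_of_card _ ?_
      rw [h4, Finset.card_insert_of_notMem (by simp [ha.symm, hb.symm, hc.symm]),
        Finset.card_insert_of_notMem (by simp [hab, hac]), Finset.card_pair hbc]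
    simpa [hy] using (h.symm ▸ Finset.mem_univ y : y ∈ ({1, a, b, c} : Finset P))
  have key : ∀ z : P, z ≠ 1 → α z ≠ z → ∀ y, y ≠ 1 → y = z ∨ y = α z ∨ y = α (α z) := by
    intro z hz hne
    refine cover z (α z) (α (α z)) hz (by simpa using hz) (by simpa using hz) hne.symm (fun h => hne ?_)
      (fun h => hne ((α.injective h).symm))
    conv_lhs => rw [h]
    exact e3 z
  have hfix : ∀ z : P, z ≠ 1 → α z ≠ z := by
    intro z hz hfix
    obtain ⟨w, hw⟩ : ∃ w, α w ≠ w := by
      by_contra hcon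
      push Not at hcon
      exact hα (MulEquiv.ext hcon)
    have hw1 : w ≠ 1 := fun h => hw (by rw [h, map_one])
    rcases key w hw1 hw z hz with h | h | h
    · exact hw (h ▸ hfix)
    · rw [h] at hfix; exact hw (α.injective hfix)
    · rw [h] at hfix; exact hw (α.injective (α.injective hfix))
  exact ⟨hfix x hx, key x hx (hfix x hx)⟩

/-- The inertial data of a four-group defect pair. -/
theorem inertial_facts (hM : IsPModular 2 M) {B : Set (IrrCharacter G)} {P : Subgroup G}
    (hV : IsKleinFour P) {c : Set (IrrCharacter (Subgroup.centralizer (P : Set G)))}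
    (hmax : IsMaximalBrauerPair 2 M B P c) :
    ((Subgroup.centralizer (P : Set G)).relIndex (stab P (bc hM P c)) = 1 ∨
      (Subgroup.centralizer (P : Set G)).relIndex (stab P (bc hM P c)) = 3) ∧
    (∀ g ∈ stab P (bc hM P c), ∀ x ∈ P, x ≠ 1 → g * x * g⁻¹ = x → g ∈ Subgroup.centralizer (P : Set G)) ∧
    ((Subgroup.centralizer (P : Set G)).relIndex (stab P (bc hM P c)) = 3 → ∀ x ∈ P, x ≠ 1 → ∀ y ∈ P, y ≠ 1 →
      ∃ t ∈ stab P (bc hM P c), t * x * t⁻¹ = y) ∧
    ((Subgroup.centralizer (P : Set G)).relIndex (stab P (bc hM P c)) = 1 →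
      stab P (bc hM P c) ≤ Subgroup.centralizer (P : Set G)) := by
  classical
  haveI : Fact (Nat.Prime 2) := ⟨Nat.prime_two⟩
  haveI : Fintype P := Fintype.ofFinite _
  have h4 : Fintype.card P = 4 := by rw [← Nat.card_eq_fintype_card]; exact hV.card_four
  have hab : ∀ x ∈ P, ∀ y ∈ P, x * y = y * x := fun x hx y hy =>
    congrArg Subtype.val (mul_comm_of_exponent_two hV.exponent_two (⟨x, hx⟩ : P) ⟨y, hy⟩)
  obtain ⟨F, hF⟩ := exists_blockFusionSystem hM hmax
  obtain ⟨φ, hr, hk, hφ⟩ := exists_autHom hM hmax hF (LE'.refl : LE' 2 ⊤ P (bc hM P c) P (bc hM P c))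
  have hnd := CfsgLib.Fusion.not_dvd_card_autGroup hmax.1.1.1 (isSaturated_block hM hmax hF) hab
  rw [← hr] at hnd
  have hidx : (Subgroup.centralizer (P : Set G)).relIndex (stab P (bc hM P c)) = Nat.card φ.range := by
    rw [← Subgroup.index_ker, hk]; rfl
  let res : MulAut P →* Equiv.Perm {z : P // z ≠ 1} :=
    { toFun := fun α => α.toEquiv.subtypeEquiv fun z => by simp
      map_one' := Equiv.ext fun z => rfl
      map_mul' := fun α β => Equiv.ext fun z => rfl }
  have hres : Function.Injective res := fun α β h => MulEquiv.ext fun z => by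
    by_cases hz : z = 1
    · simp [hz]
    · exact congrArg (fun t : Equiv.Perm {z : P // z ≠ 1} => (t ⟨z, hz⟩ : P)) h
  have hdvd : Nat.card φ.range ∣ 6 := by
    have h1 : Nat.card φ.range ∣ Nat.card (Equiv.Perm {z : P // z ≠ 1}) := by
      rw [← Subgroup.card_map_of_injective hres]
      exact Subgroup.card_subgroup_dvd_card _
    have h2 : Fintype.card {z : P // z ≠ 1} = 3 := by
      rw [Fintype.card_subtype_compl, Fintype.card_subtype_eq, h4]
    rwa [Nat.card_eq_fintype_card (α := Equiv.Perm _), Fintype.card_perm, h2] at h1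
  have he : Nat.card φ.range = 1 ∨ Nat.card φ.range = 3 := by
    have := Nat.le_of_dvd (by norm_num) hdvd
    interval_cases h : Nat.card φ.range <;> first | omega | (exfalso; omega)
  have hpow : ∀ t, φ t ^ 3 = 1 := fun t => by
    have h1 := orderOf_dvd_natCard (⟨φ t, t, rfl⟩ : φ.range)
    rw [← orderOf_dvd_iff_pow_eq_one, ← show orderOf (⟨φ t, t, rfl⟩ : φ.range) = orderOf (φ t) from
      (Subgroup.orderOf_coe _).symm]
    rcases he with h | h <;> rw [h] at h1
    · exact h1.trans (one_dvd _)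
    · exact h1
  refine ⟨hidx ▸ he, fun g hg x hx hx1 hgx => ?_, fun h3 x hx hx1 y hy hy1 => ?_, fun h1 => Subgroup.relIndex_eq_one.1 h1⟩
  · have hker : φ ⟨g, hg⟩ = 1 := by
      by_contra hne
      exact (perm_facts h4 _ (hpow _) hne (x := ⟨x, hx⟩) (by simpa [← Subtype.val_inj] using hx1)).1
        (Subtype.ext (by rw [hφ]; exact hgx))
    have h2 : (⟨g, hg⟩ : ↥(stab P (bc hM P c))) ∈ φ.ker := hker
    rw [hk] at h2
    exact h2
  · obtain ⟨α, ⟨t, rfl⟩, hne⟩ : ∃ α ∈ φ.range, α ≠ 1 := by
      by_contra hcon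
      push Not at hcon
      have : φ.range = ⊥ := (Subgroup.eq_bot_iff_forall _).2 hcon
      rw [hidx, this, Subgroup.card_bot] at h3
      omega
    rcases (perm_facts h4 _ (hpow t) hne (x := ⟨x, hx⟩) (by simpa [← Subtype.val_inj] using hx1)).2 ⟨y, hy⟩
      (by simpa [← Subtype.val_inj] using hy1) with h | h | h
    · refine ⟨1, Subgroup.one_mem _, ?_⟩
      have h' : y = x := congrArg Subtype.val h
      rw [h']; group
    · exact ⟨(t : G), t.2, by rw [show y = _ from congrArg Subtype.val h, hφ]⟩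
    · refine ⟨((t * t : ↥(stab P (bc hM P c))) : G), (t * t).2, ?_⟩
      rw [show y = _ from congrArg Subtype.val h]
      show _ = ((φ t * φ t) ⟨x, hx⟩ : G)
      rw [← map_mul, hφ]

section Subsections

variable (hM : IsPModular 2 M) {B : Set (IrrCharacter G)} {P : Subgroup G}
  {c : Set (IrrCharacter (Subgroup.centralizer (P : Set G)))}

include hM

/-- A move between elements below an abelian maximal pair is realized by its stabilizer. -/
theorem exists_stab_move [Fact (Nat.Prime 2)] (hmax : IsMaximalBrauerPair 2 M B P c)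
    (hab : ∀ x ∈ P, ∀ y ∈ P, x * y = y * x) {x h : G} {a : MonoidAlgebra (Residue hM) G}
    (ha : LE' 2 ⊤ (Subgroup.zpowers x) a P (bc hM P c))
    (hb : LE' 2 ⊤ (cm h (Subgroup.zpowers x)) (PairAlg.cj h a) P (bc hM P c)) :
    ∃ t ∈ stab P (bc hM P c), t * x * t⁻¹ = h * x * h⁻¹ := by
  have hc := complete (G := G) hM
  have hm := isMax_bc hM hmax
  have hpe := isPair_bc hM hmax.1.1
  set Q := Subgroup.zpowers x
  have hPC : ∀ R : Subgroup G, R ≤ P → P ≤ Subgroup.centralizer (R : Set G) := fun R hR u hu =>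
    Subgroup.mem_centralizer_iff.2 fun q hq => (hab u hu q (hR hq)).symm
  have hQ' := hb.subgroup_le
  have hN : P ⊓ Subgroup.normalizer (cm h Q : Set G) = P :=
    inf_eq_left.2 ((hPC _ hQ').trans (centralizer_le_normalizer _))
  have hfull : Nat.card ↥(P ⊓ Subgroup.normalizer (cm h Q : Set G)) =
      dmax 2 (stab (cm h Q) (PairAlg.cj h a)) (PairAlg.cj h a) := by
    rw [hN]
    refine le_antisymm ?_ ?_
    · refine le_dmax hpe.isP ((le_inf le_rfl ((hPC _ hQ').trans (centralizer_le_normalizer _))).trans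
        (normalizer_le_stab hc hm hb)) ?_
      have := br_normalizer_ne hc hm hb
      rwa [hN] at this
    · obtain ⟨y, -, hy⟩ := exists_full hc hm hb (K := stab (cm h Q) (PairAlg.cj h a)) le_rfl
      rw [← hy]
      exact Subgroup.card_le_of_le inf_le_left
  have hs := (LE'.nstep hc hpe ha ((hPC Q ha.subgroup_le).trans (centralizer_le_normalizer _))).cj h
  obtain ⟨d, hd, hle⟩ := exists_extension hc hm hb hfull hs (le_sup_of_le_right (by
    rw [← cm_centralizer]; exact cm_mono (hPC Q ha.subgroup_le)))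
  rw [cm_cm, cj_cj] at hle
  have heq : cm (d * h) P = P := Subgroup.eq_of_le_of_card_ge hle.subgroup_le (card_cm _ _).ge
  rw [heq] at hle
  refine ⟨d * h, ⟨mem_normalizer_of_cm heq, below_unique hc hpe hle LE'.refl⟩, ?_⟩
  have : h * x * h⁻¹ ∈ cm h Q := conj_mem_cm.2 (Subgroup.mem_zpowers x)
  calc d * h * x * (d * h)⁻¹ = d * (h * x * h⁻¹) * d⁻¹ := by group
    _ = _ := by rw [← Subgroup.mem_centralizer_iff.1 hd _ this, mul_inv_cancel_right]

/-- The block below the pair at a non-identity element. -/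
theorem exists_local [Fact (Nat.Prime 2)] (hB : IsPBlock M B) (hPD : IsDefectGroup 2 M B P)
    (hc : IsInducedBlock M (Subgroup.centralizer (P : Set G)) c B)
    (hab : ∀ x ∈ P, ∀ y ∈ P, x * y = y * x)
    (hfree : ∀ g ∈ stab P (bc hM P c), ∀ x ∈ P, x ≠ 1 → g * x * g⁻¹ = x → g ∈ Subgroup.centralizer (P : Set G))
    {x : G} (hx : x ∈ P) (hx1 : x ≠ 1) :
    ∃ b, Bel hM P c x b ∧ IsInducedBlock M (cen x) b B ∧ blockRank 2 b = 1 ∧
      2 ^ blockDefect 2 b = Nat.card P := by
  have hcp := complete (G := G) hM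
  have hmax := isMaximal_of_induced hM hPD hc
  have hm := isMax_bc hM hmax
  have hpe := isPair_bc hM hmax.1.1
  obtain ⟨b, hbel⟩ := exists_bel hM hmax hx
  obtain ⟨-, hb, hle⟩ := id hbel
  have hxk := exists_orderOf_eq_of_mem hmax.1.1.1 hx
  have hQP := hle.subgroup_le
  have hPQ : P ≤ Subgroup.centralizer (Subgroup.zpowers x : Set G) := fun u hu =>
    Subgroup.mem_centralizer_iff.2 fun q hq => (hab u hu q (hQP hq)).symm
  have hPC : P ≤ cen x := (centralizer_zpowers_eq x) ▸ hPQ
  refine ⟨b, hbel, (induced_iff_ofBlk hM hxk hb hB).2 (ofBlk_of_below hM hmax hle), ?_, ?_⟩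
  · obtain ⟨f, hQf, hfe⟩ := exists_bc hM (hle.isPair hpe)
    have hs := LE'.nstep hcp hpe hle (hPQ.trans (centralizer_le_normalizer _))
    rw [← hfe] at hs
    have hP1 : P ≠ ⊥ := fun h => hx1 (Subgroup.mem_bot.1 (h ▸ hx))
    have hnil := (Cfsg.Agent.S4650.result 2 M hM B hB P hPD hab hP1 c hc (stab P (bc hM P c))
      (fun g => ⟨fun h => ⟨h.1, (stabilizesBlock_bc_iff hM hc.1 h.1).2 h.2⟩,
        fun h => ⟨h.1, (stabilizesBlock_bc_iff hM hc.1 h.1).1 h.2⟩⟩)).1 hfree (Subgroup.zpowers x) hQP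
      (fun h => hx1 (Subgroup.zpowers_eq_bot.1 h)) f
      ((isInducedBlockIn_iff hM hQP hPQ hmax.1.1).2 ((nstep_bc_iff hM hQf hmax.1.1).2 hs))
    obtain ⟨b', hb1, -, hb2, hb3, -, -⟩ := exists_transfer hM (centralizer_zpowers_eq x) f
    obtain rfl : b' = b := bl_inj hM _ (cen x).subtype_injective (hb2 hQf.2) hb (hb1.trans hfe)
    exact blockRank_eq_one hM (hb3 hnil)
  · have hD : IsDefectGroup 2 M b (P.subgroupOf (cen x)) := by
      refine (isDefectGroup_sub_iff hM hb hmax.1.1.1 hPC).2 ?_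
      have hK : cen x ≤ Subgroup.normalizer (Subgroup.zpowers x : Set G) := by
        rw [← centralizer_zpowers_eq]; exact centralizer_le_normalizer _
      have hbr : Br P (bb hM x b) ≠ 0 := by
        have := br_inf_ne hcp hm hle hK
        rwa [inf_eq_left.2 hPC] at this
      refine ⟨hbr, le_antisymm (le_dmax hpe.isP hPC hbr) ?_⟩
      have hKs : cen x ≤ stab (Subgroup.zpowers x) (bb hM x b) := by
        rw [← centralizer_zpowers_eq]; exact centralizer_le_stab (hle.isPair hpe)
      obtain ⟨y, -, hy⟩ := exists_full hcp hm hle (K := cen x) hKs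
      rw [← hy]
      exact Subgroup.card_le_of_le inf_le_left
    rw [← card_defectGroup hM hb hD, Nat.card_congr (Subgroup.subgroupOfEquivOfLe hPC).toEquiv]

/-- Every subsection is conjugate to one below the pair, in terms of idempotents. -/
theorem exists_conj_le [Fact (Nat.Prime 2)] (hmax : IsMaximalBrauerPair 2 M B P c) (hB : IsPBlock M B)
    {x : G} (hx : ∃ k : ℕ, orderOf x = 2 ^ k) {b : Set (IrrCharacter (cen x))}
    (hind : IsInducedBlock M (cen x) b B) :
    ∃ g, g * x * g⁻¹ ∈ P ∧ LE' 2 ⊤ (cm g (Subgroup.zpowers x)) (PairAlg.cj g (bb hM x b)) P (bc hM P c) := by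
  obtain ⟨g, hg⟩ := exists_conj_below_max hM hmax ((induced_iff_ofBlk hM hx hind.1 hB).1 hind)
  exact ⟨g, hg.subgroup_le (conj_mem_cm.2 (Subgroup.mem_zpowers x)), hg⟩

/-- The identity carries exactly the block itself. -/
theorem rank_at_one [Fact (Nat.Prime 2)] (hB : IsPBlock M B) :
    ∑ᶠ b ∈ {b : Set (IrrCharacter (cen (1 : G))) | IsInducedBlock M (cen (1 : G)) b B}, blockRank 2 b =
      blockRank 2 B := by
  have htop : (⊤ : Subgroup G) = cen 1 := (eq_top_iff.2 fun g _ =>
    Subgroup.mem_centralizer_singleton_iff.2 (by rw [mul_one, one_mul])).symm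
  let φ : G ≃* cen (1 : G) := Subgroup.topEquiv.symm.trans (MulEquiv.subgroupCongr htop)
  have hb₀ : IsPBlock M (pushBlock φ B) := isPBlock_pushBlock φ hB
  have hbl : bb hM 1 (pushBlock φ B) = bG hM B := by
    have := cj_bl hM (MonoidHom.id G) id_injective (cen (1 : G)).subtype φ 1 (fun a => by
      show a = 1 * a * 1⁻¹
      group) B
    rw [cj_one_apply] at this
    exact this.symm
  have hk : ∃ k : ℕ, orderOf (1 : G) = 2 ^ k := ⟨0, by simp⟩
  have hCH : CH ⊤ (Subgroup.zpowers (1 : G)) = ⊤ := by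
    rw [CH_top, centralizer_zpowers_eq, ← htop]
  have hbr : ∀ a : MonoidAlgebra (Residue hM) G, Br (Subgroup.zpowers (1 : G)) a = a := fun a => by
    rw [Subgroup.zpowers_one_eq_bot, br_bot]
  have hblk : IsBlk (⊤ : Subgroup G) (bG hM B) := by
    have := isBlk_bl hM (MonoidHom.id G) id_injective hB
    rwa [range_id] at this
  have hset : {b : Set (IrrCharacter (cen (1 : G))) | IsInducedBlock M (cen (1 : G)) b B} = {pushBlock φ B} := by
    ext b
    refine ⟨fun h => ?_, ?_⟩
    · obtain ⟨-, hp, hmul⟩ := (induced_iff_ofBlk hM hk h.1 hB).1 h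
      rw [hbr] at hmul
      have hp' := hp.blk
      rw [hCH] at hp'
      rcases hp'.eq_or_mul_eq_zero hblk with h1 | h1
      · exact absurd (hmul.symm.trans h1) hp'.ne
      · exact bl_inj hM _ (cen (1 : G)).subtype_injective h.1 hb₀ (h1.trans hbl.symm)
    · rintro rfl
      refine (induced_iff_ofBlk hM hk hb₀ hB).2 ⟨hblk, ⟨?_, le_top, ?_⟩, ?_⟩
      · rw [Subgroup.zpowers_one_eq_bot]; exact IsPGroup.of_bot
      · rw [hCH, hbl]; exact hblk
      · rw [hbr, hbl, hblk.idem]
  rw [hset, finsum_mem_singleton, blockRank_pushBlock]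

end Subsections

end CfsgLib.KleinFour
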