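import Cfsg.Agent.Blocks.KleinFour.Count
import Cfsg.Agent.Blocks.KleinFour.Divisible
import Cfsg.Agent.Blocks.Reynolds
import Cfsg.Agent.Blocks.RankOne

/-!
# The sign columns of a block with a four-group as defect group
-/

set_option autoImplicit false
set_option linter.unusedSectionVars false
set_option linter.style.haveILetI false

namespace CfsgLib.KleinFour

open Cfsg CfsgLib CfsgLib.Blocks CfsgLib.CharBasics CfsgLib.PairAlg CfsgLib.NilBlock Polynomial
open scoped ComplexConjugate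

attribute [local instance] residueField residue_charP

universe u

variable {M : Ideal AlgInt} {G : Type u} [Group G] [Fintype G]

noncomputable local instance instFintypeSubgroupKleinSigns (K : Subgroup G) : Fintype K := Fintype.ofFinite K

/-- A vector of signs on the block, orthogonal to the regular columns. -/
structure SignCol (B : Set (IrrCharacter G)) [Fintype (IrrCharacter G)] (s : IrrCharacter G → ℤ) : Prop where
  unit : ∀ χ ∈ B, s χ = 1 ∨ s χ = -1
  zero : ∀ χ ∉ B, s χ = 0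
  orth : ∀ y : G, ¬ 2 ∣ orderOf y → ∑ χ : IrrCharacter G, (s χ : ℂ) * (χ : G → ℂ) y = 0

/-- The values at a subsection of an involution are signs times one function. -/
theorem exists_signs (hM : IsPModular 2 M) {B : Set (IrrCharacter G)} (hk : Nat.card B = 4) {x : G}
    (hx : orderOf x = 2) {b : Set (IrrCharacter (cen x))} (hind : IsInducedBlock M (cen x) b B)
    (hl : blockRank 2 b = 1) (hdb : blockDefect 2 b = 2) (hdB : blockDefect 2 B = 2)
    [Fintype (IrrCharacter G)] :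
    ∃ (s : IrrCharacter G → ℤ) (χ₁ : IrrCharacter G), SignCol B s ∧
      ∀ χ : IrrCharacter G, ∀ y : cen x,
        secVal 2 x b (χ : G → ℂ) y = (s χ : ℂ) * secVal 2 x b (χ₁ : G → ℂ) y := by
  classical
  have hxk : ∃ k : ℕ, orderOf x = 2 ^ k := ⟨1, by rw [hx, pow_one]⟩
  have hx1 : x ≠ 1 := fun h => by rw [h, orderOf_one] at hx; omega
  obtain ⟨ξ₀, h₀, hmin₀, he₀⟩ := exists_min_degExp hM hind.1
  obtain ⟨χ₁, hχ₁, hmin₁, he₁⟩ := exists_min_degExp hM hind.2.1
  have hh1 : blockHeight 2 B (χ₁ : G → ℂ) = 0 := by rw [blockHeight_eq he₁, Nat.sub_self]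
  have hn : (Nat.card (cen x)).factorization 2 - degExp 2 ξ₀ = 2 := by
    rw [← blockDefect_eq he₀, hdb]
  have hN : (2 : ℕ) ^ 1 ≠ 0 := by norm_num
  have hdvd : orderOf x ∣ 2 ^ 1 := by rw [hx, pow_one]
  have hζ : zetaRoot (2 ^ 1) = -1 := by
    have h := zetaRoot_prim hN
    rw [pow_one] at h ⊢
    exact h.eq_neg_one_of_two_right
  set m : IrrCharacter G → IrrCharacter G → ℤ :=
    fun χ ψ => (contribPoly 2 (2 ^ 1) x b (degExp 2 ξ₀) χ ψ).eval (-1) with hm
  have hmc : ∀ χ ψ, aeval (zetaRoot (2 ^ 1)) (contribPoly 2 (2 ^ 1) x b (degExp 2 ξ₀) χ ψ) = (m χ ψ : ℂ) := by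
    intro χ ψ
    rw [hζ, show (-1 : ℂ) = algebraMap ℤ ℂ (-1) by simp, aeval_algebraMap_apply]
    simp [hm, coe_aeval_eq_eval]
  have hsum : ∀ χ ψ : IrrCharacter G, ∑ y : cen x,
      secVal 2 x b (χ : G → ℂ) y * conj (secVal 2 x b (ψ : G → ℂ) y) =
      (Nat.card (cen x) : ℂ) / 4 * (m χ ψ : ℂ) := by
    intro χ ψ
    rw [← hmc, aeval_contribPoly hM hN hdvd hmin₀, hn]
    push_cast
    field_simp
    ring
  have hsec0 : ∀ χ ∉ B, ∀ y, secVal 2 x b (χ : G → ℂ) y = 0 := by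
    intro χ hχ y
    refine secVal_eq_zero hM hxk hind.1 (isPBlock_blockOf M χ) (mem_blockOf_self hM χ) (fun h => hχ ?_) y
    obtain ⟨ξ, hξ⟩ := IsPBlock.nonempty hM hind.1
    rw [IsPBlock.eq_blockOf hM hind.2.1 hχ₁]
    intro g
    simpa using memLocalIdeal_sub hM (h.2.2 ξ hξ χ (mem_blockOf_self hM χ) g) (hind.2.2 ξ hξ χ₁ hχ₁ g)
  have hout : ∀ χ ∉ B, ∀ ψ, m χ ψ = 0 := by
    intro χ hχ ψ
    have h0 : ((Nat.card (cen x) : ℂ) / 4) * (m χ ψ : ℂ) = 0 := by
      rw [← hsum]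
      exact Finset.sum_eq_zero fun y _ => by rw [hsec0 χ hχ y, zero_mul]
    have hc : (Nat.card (cen x) : ℂ) / 4 ≠ 0 :=
      div_ne_zero (Nat.cast_ne_zero.2 Nat.card_pos.ne') (by norm_num)
    exact_mod_cast (mul_eq_zero.1 h0).resolve_left hc
  have hsym : ∀ χ ψ, m χ ψ = m ψ χ := fun χ ψ => by
    have h := conj_contrib hM.1 hN b (degExp 2 ξ₀) χ ψ (zetaRoot_prim hN).pow_eq_one
    rw [hmc, hmc, map_intCast] at h
    exact_mod_cast h
  have hj : (1 : ℕ).Coprime (2 ^ 1) := Nat.coprime_one_left _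
  have hmc' := hmc
  simp only [pow_one] at hmc'
  have hrow : ∀ χ, ∑ ψ : IrrCharacter G, m χ ψ ^ 2 = 4 * m χ χ := fun χ => by
    have h := sum_contrib_mul hM hxk hind.1 hN hdvd hmin₀ hj χ χ
    simp only [pow_one, hmc', hn] at h
    rw [← Int.cast_inj (α := ℂ)]
    push_cast
    rw [show (4 : ℂ) = ((2 : ℕ) : ℂ) ^ 2 by norm_num, ← h]
    exact Finset.sum_congr rfl fun ψ _ => by rw [hsym ψ χ, sq]
  have hne : ∀ χ ∈ B, m χ χ₁ ≠ 0 := fun χ hχ h0 => by
    refine major_not_mem hM hxk hind (K := 1) hdvd h₀ hmin₀ (hdB.trans hn.symm) hχ hχ₁ hh1 ?_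
    rw [hmc, h0, Int.cast_zero, zero_div]
    exact memLocalIdeal_zero hM
  set S := Finset.univ.filter (fun χ : IrrCharacter G => χ ∈ B) with hS
  have hcard : S.card = 4 := by
    rw [← hk, Nat.card_eq_fintype_card (α := B), hS, ← Fintype.card_subtype]
  have htr : ∑ χ ∈ S, m χ χ = 4 := by
    have h := sum_contrib_diag hM hxk hind.1 hN hdvd hmin₀ hj
    simp only [pow_one, hmc', hn, hl] at h
    rw [Finset.sum_subset (Finset.subset_univ S) fun ψ _ hψ => hout ψ (by simpa [hS] using hψ) ψ]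
    rw [← Int.cast_inj (α := ℂ)]
    push_cast
    rw [h]; norm_num
  have hpos : ∀ χ ∈ S, 1 ≤ m χ χ := fun χ hχ => by
    have h1 : m χ χ₁ ^ 2 ≤ ∑ ψ : IrrCharacter G, m χ ψ ^ 2 :=
      Finset.single_le_sum (f := fun ψ => m χ ψ ^ 2) (fun ψ _ => sq_nonneg _) (Finset.mem_univ χ₁)
    rw [hrow] at h1
    have := sq_pos_of_ne_zero (hne χ (Finset.mem_filter.1 hχ).2)
    omega
  have hone : ∀ χ ∈ B, m χ χ = 1 := by
    intro χ hχ
    have h := (Finset.sum_eq_sum_iff_of_le hpos).1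
      (show ∑ ψ ∈ S, (1 : ℤ) = ∑ ψ ∈ S, m ψ ψ by rw [htr, Finset.sum_const, hcard]; rfl) χ
      (Finset.mem_filter.2 ⟨Finset.mem_univ χ, hχ⟩)
    exact h.symm
  have hunit : ∀ χ ∈ B, m χ χ₁ = 1 ∨ m χ χ₁ = -1 := by
    intro χ hχ
    have h4 : ∑ ψ ∈ S, m χ₁ ψ ^ 2 = 4 := by
      rw [Finset.sum_subset (Finset.subset_univ S) fun ψ _ hψ => by
        rw [hsym, hout ψ (by simpa [hS] using hψ)]; ring, hrow, hone χ₁ hχ₁]
      norm_num
    have hle : ∀ ψ ∈ S, (1 : ℤ) ≤ m χ₁ ψ ^ 2 := fun ψ hψ => by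
      rw [hsym]
      have := sq_pos_of_ne_zero (hne ψ (Finset.mem_filter.1 hψ).2)
      omega
    have h := (Finset.sum_eq_sum_iff_of_le hle).1
      (by rw [h4, Finset.sum_const, hcard]; rfl) χ (Finset.mem_filter.2 ⟨Finset.mem_univ χ, hχ⟩)
    rw [hsym χ₁] at h
    exact sq_eq_one_iff.1 h.symm
  have hprop : ∀ χ : IrrCharacter G, ∀ y : cen x,
      secVal 2 x b (χ : G → ℂ) y = (m χ χ₁ : ℂ) * secVal 2 x b (χ₁ : G → ℂ) y := by
    intro χ y
    by_cases hχ : χ ∈ B
    swap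
    · rw [hsec0 χ hχ y, hout χ hχ, Int.cast_zero, zero_mul]
    set u := fun z : cen x => secVal 2 x b (χ : G → ℂ) z - (m χ χ₁ : ℂ) * secVal 2 x b (χ₁ : G → ℂ) z with hu
    have hz : ∑ z : cen x, u z * conj (u z) = 0 := by
      simp only [hu, map_sub, map_mul, map_intCast, sub_mul, mul_sub, Finset.sum_sub_distrib]
      rw [show ∑ z : cen x, secVal 2 x b (χ : G → ℂ) z * ((m χ χ₁ : ℂ) * conj (secVal 2 x b (χ₁ : G → ℂ) z)) =
          (m χ χ₁ : ℂ) * ((Nat.card (cen x) : ℂ) / 4 * (m χ χ₁ : ℂ)) by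
          rw [← hsum, Finset.mul_sum]; exact Finset.sum_congr rfl fun z _ => by ring,
        show ∑ z : cen x, (m χ χ₁ : ℂ) * secVal 2 x b (χ₁ : G → ℂ) z * conj (secVal 2 x b (χ : G → ℂ) z) =
          (m χ χ₁ : ℂ) * ((Nat.card (cen x) : ℂ) / 4 * (m χ₁ χ : ℂ)) by
          rw [← hsum, Finset.mul_sum]; exact Finset.sum_congr rfl fun z _ => by ring,
        show ∑ z : cen x, (m χ χ₁ : ℂ) * secVal 2 x b (χ₁ : G → ℂ) z *
            ((m χ χ₁ : ℂ) * conj (secVal 2 x b (χ₁ : G → ℂ) z)) =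
          (m χ χ₁ : ℂ) * (m χ χ₁ : ℂ) * ((Nat.card (cen x) : ℂ) / 4 * (m χ₁ χ₁ : ℂ)) by
          rw [← hsum, Finset.mul_sum]; exact Finset.sum_congr rfl fun z _ => by ring,
        hsum, hone χ hχ, hone χ₁ hχ₁, hsym χ₁ χ]
      rcases hunit χ hχ with h | h <;> rw [h] <;> push_cast <;> ring
    have h2 : ∀ z, u z = 0 := by
      intro z
      have h3 : ∑ z : cen x, ‖u z‖ ^ 2 = 0 := by
        have := congrArg Complex.re hz
        simpa [Complex.re_sum, Complex.mul_conj', ← Complex.ofReal_pow] using this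
      have h4 := (Finset.sum_eq_zero_iff_of_nonneg fun i _ => by positivity).1 h3 z (Finset.mem_univ z)
      exact norm_eq_zero.1 (pow_eq_zero_iff two_ne_zero |>.1 h4)
    exact sub_eq_zero.1 (h2 y)
  refine ⟨fun χ => m χ χ₁, χ₁, ⟨hunit, fun χ hχ => hout χ hχ χ₁, fun y hy => ?_⟩, hprop⟩
  have hF := secVal_one_ne_zero hM hxk hind hχ₁ hmin₁
  have h := sum_secVal_regular hM hind.1 hxk hx1 1 hy
  rw [Finset.sum_congr rfl (g := fun χ : IrrCharacter G =>
    ((m χ χ₁ : ℂ) * (χ : G → ℂ) y) * conj (secVal 2 x b (χ₁ : G → ℂ) 1)) fun χ _ => by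
      rw [hprop χ 1, map_mul, map_intCast]; ring, ← Finset.sum_mul] at h
  exact (mul_eq_zero.1 h).resolve_right fun hc => hF (star_eq_zero.1 hc)

/-- The subsections away from the identity are alike. -/
theorem local_data (hM : IsPModular 2 M) {B : Set (IrrCharacter G)} (hB : IsPBlock M B) {P : Subgroup G}
    (hPD : IsDefectGroup 2 M B P) (hV : IsKleinFour P) {c : Set (IrrCharacter (Subgroup.centralizer (P : Set G)))}
    (hc : IsInducedBlock M (Subgroup.centralizer (P : Set G)) c B) {x : G} (hx : ∃ k : ℕ, orderOf x = 2 ^ k)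
    (hx1 : x ≠ 1) {b : Set (IrrCharacter (cen x))} (hind : IsInducedBlock M (cen x) b B) :
    orderOf x = 2 ∧ blockRank 2 b = 1 ∧ blockDefect 2 b = 2 := by
  classical
  haveI : Fact (Nat.Prime 2) := ⟨Nat.prime_two⟩
  have hmax := isMaximal_of_induced hM hPD hc
  obtain ⟨-, hfree, -, -⟩ := inertial_facts hM hV hmax
  have hab : ∀ x ∈ P, ∀ y ∈ P, x * y = y * x := fun x hx y hy =>
    congrArg Subtype.val (mul_comm_of_exponent_two hV.exponent_two (⟨x, hx⟩ : P) ⟨y, hy⟩)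
  obtain ⟨g, hgP, hle⟩ := exists_conj_le hM hmax hB hx hind
  have hne : g * x * g⁻¹ ≠ 1 := fun h => hx1 (conj_eq_one_iff.1 h)
  obtain ⟨b', hbel, -, hl', hd'⟩ := exists_local hM hB hPD hc hab hfree hgP hne
  have hbb : bb hM (g * x * g⁻¹) (pushBlock (cenConj g x) b) = PairAlg.cj g (bb hM x b) :=
    (cj_bl hM (cen x).subtype (cen x).subtype_injective (cen (g * x * g⁻¹)).subtype (cenConj g x) g
      (fun a => rfl) b).symm
  rw [cm_zpowers, ← hbb] at hle
  have heq : pushBlock (cenConj g x) b = b' :=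
    bl_inj hM _ (cen (g * x * g⁻¹)).subtype_injective (isPBlock_pushBlock _ hind.1) hbel.2.1
      (below_unique (complete (G := G) hM) (isPair_bc hM hmax.1.1) hle hbel.2.2)
  refine ⟨?_, ?_, ?_⟩
  · rw [← orderOf_injective (MulAut.conj g).toMonoidHom (MulAut.conj g).injective x]
    refine orderOf_eq_prime ?_ hne
    have h := Monoid.pow_exponent_eq_one (⟨_, hgP⟩ : P)
    rw [hV.exponent_two] at h
    exact congrArg Subtype.val h
  · rw [← blockRank_pushBlock 2 (cenConj g x) b, heq, hl']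
  · have hpd : blockDefect 2 (pushBlock (cenConj g x) b) = blockDefect 2 b := by
      rw [blockDefect, blockDefect, Nat.card_congr (cenConj g x).toEquiv.symm, pushBlock, Set.image_image]
      congr 2
      exact Set.image_congr fun ξ _ => degExp_pushChar 2 _ ξ
    rw [← hpd, heq]
    rw [hV.card_four] at hd'
    exact Nat.pow_right_injective le_rfl (a₁ := blockDefect 2 b') (a₂ := 2) (by simpa using hd')

/-- Two sign columns orthogonal to a common constant meet in a multiple of four. -/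
theorem four_dvd_signs {ι : Type*} (S : Finset ι) (hS : S.card = 4) (s t : ι → ℤ)
    (hs : ∀ i ∈ S, s i = 1 ∨ s i = -1) (ht : ∀ i ∈ S, t i = 1 ∨ t i = -1)
    (hs0 : ∑ i ∈ S, s i = 0) (ht0 : ∑ i ∈ S, t i = 0) : (4 : ℤ) ∣ ∑ i ∈ S, s i * t i := by
  have h : (4 : ℤ) ∣ ∑ i ∈ S, (1 + s i) * (1 + t i) := Finset.dvd_sum fun i hi => by
    rcases hs i hi with h | h <;> rcases ht i hi with h' | h' <;> simp [h, h']
  rw [Finset.sum_congr rfl (g := fun i => 1 + s i + t i + s i * t i) fun i _ => by ring,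
    Finset.sum_add_distrib, Finset.sum_add_distrib, Finset.sum_add_distrib, hs0, ht0, Finset.sum_const, hS] at h
  simpa using h

/-- With three regular columns the sign columns are equal up to sign. -/
theorem signCol_unique {B : Set (IrrCharacter G)} [Fintype (IrrCharacter G)] (hk : Nat.card B = 4)
    (hl : blockRank 2 B = 3) {s t : IrrCharacter G → ℤ} (hs : SignCol B s) (ht : SignCol B t) :
    ∃ u : ℤ, (u = 1 ∨ u = -1) ∧ ∀ χ, s χ = u * t χ := by
  classical
  set v : B → G → ℂ := fun χ => pRegularPart 2 ((χ : IrrCharacter G) : G → ℂ) with hv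
  set Φ := Fintype.linearCombination ℂ v with hΦ
  have hrange : Module.finrank ℂ (LinearMap.range Φ) = 3 := by
    rw [hΦ, Fintype.range_linearCombination, ← hl, blockRank, Set.image_eq_range]
  have hker : Module.finrank ℂ (LinearMap.ker Φ) = 1 := by
    have h := LinearMap.finrank_range_add_finrank_ker Φ
    rw [hrange, Module.finrank_fintype_fun_eq_card, ← Nat.card_eq_fintype_card, hk] at h
    omega
  have hmem : ∀ {r : IrrCharacter G → ℤ}, SignCol B r →
      (fun χ : B => (r χ : ℂ)) ∈ LinearMap.ker Φ := by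
    intro r hr
    rw [LinearMap.mem_ker, hΦ, Fintype.linearCombination_apply]
    funext y
    simp only [Finset.sum_apply, Pi.smul_apply, smul_eq_mul, Pi.zero_apply, hv, pRegularPart_eq]
    by_cases hy : 2 ∣ orderOf y
    · simp [hy]
    · simp only [hy, if_false]
      rw [← hr.orth y hy, ← Finset.sum_filter_add_sum_filter_not Finset.univ (fun χ : IrrCharacter G => χ ∈ B),
        Finset.sum_eq_zero (s := Finset.univ.filter fun χ : IrrCharacter G => ¬ χ ∈ B) fun χ hχ => by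
          rw [hr.zero χ (Finset.mem_filter.1 hχ).2, Int.cast_zero, zero_mul],
        add_zero, Finset.sum_subtype (Finset.univ.filter fun χ : IrrCharacter G => χ ∈ B) (p := (· ∈ B)) (by simp)]
  obtain ⟨χ₀, hχ₀⟩ : B.Nonempty := by
    rw [← Set.nonempty_coe_sort, ← not_isEmpty_iff]
    intro h
    simp at hk
  have hnet : (⟨_, hmem ht⟩ : LinearMap.ker Φ) ≠ 0 := fun h => by
    have := congrFun (congrArg Subtype.val h) ⟨χ₀, hχ₀⟩
    rcases ht.unit χ₀ hχ₀ with h' | h' <;> simp [h'] at this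
  obtain ⟨a, ha⟩ := (finrank_eq_one_iff_of_nonzero' _ hnet).1 hker ⟨_, hmem hs⟩
  have ha' : ∀ χ ∈ B, a * (t χ : ℂ) = (s χ : ℂ) := fun χ hχ =>
    congrFun (congrArg Subtype.val ha) ⟨χ, hχ⟩
  refine ⟨s χ₀ * t χ₀, ?_, fun χ => ?_⟩
  · rcases hs.unit χ₀ hχ₀ with h | h <;> rcases ht.unit χ₀ hχ₀ with h' | h' <;> simp [h, h']
  by_cases hχ : χ ∈ B
  swap
  · rw [hs.zero χ hχ, ht.zero χ hχ, mul_zero]
  have h0 := ha' χ₀ hχ₀
  have ht2 : t χ₀ * t χ₀ = 1 := by rcases ht.unit χ₀ hχ₀ with h | h <;> simp [h]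
  have haI : a = ((s χ₀ * t χ₀ : ℤ) : ℂ) := by
    have hc : (t χ₀ : ℂ) * (t χ₀ : ℂ) = 1 := by exact_mod_cast ht2
    push_cast
    rw [← h0, mul_assoc, hc, mul_one]
  have h1 := ha' χ hχ
  rw [haI] at h1
  exact_mod_cast h1.symm

/-- With one regular column a sign column sums to zero and all members agree on the regular elements. -/
theorem rank_one_flat (hM : IsPModular 2 M) {B : Set (IrrCharacter G)} (hB : IsPBlock M B)
    [Fintype (IrrCharacter G)] (hk : Nat.card B = 4) (hl : blockRank 2 B = 1) (hdB : blockDefect 2 B = 2) :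
    ∃ φ : G → ℂ, (∀ χ ∈ B, ∀ y : G, ¬ 2 ∣ orderOf y → (χ : G → ℂ) y = φ y) ∧ φ 1 ≠ 0 := by
  classical
  obtain ⟨φ, d, n, -, hmult, hsum⟩ := rank_one_structure hM hB hl
  have h1 : ¬ 2 ∣ orderOf (1 : G) := by rw [orderOf_one]; norm_num
  rw [hdB, ← Finset.sum_filter] at hsum
  have hcard : (Finset.univ.filter fun χ : IrrCharacter G => χ ∈ B).card = 4 := by
    rw [← hk, Nat.card_eq_fintype_card (α := B), ← Fintype.card_subtype]
  have hpos : ∀ χ ∈ Finset.univ.filter (fun χ : IrrCharacter G => χ ∈ B), 1 ≤ d χ ^ 2 := fun χ hχ => by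
    refine Nat.one_le_pow _ _ (Nat.pos_of_ne_zero fun h0 => ?_)
    have h := hmult χ (Finset.mem_filter.1 hχ).2 1 h1
    rw [h0, Nat.cast_zero, zero_mul] at h
    exact apply_one_ne_zero χ.2 h
  have hd : ∀ χ ∈ B, d χ = 1 := fun χ hχ => by
    have h := (Finset.sum_eq_sum_iff_of_le hpos).1 (by rw [hsum, Finset.sum_const, hcard]; rfl) χ
      (Finset.mem_filter.2 ⟨Finset.mem_univ χ, hχ⟩)
    exact (pow_eq_one_iff.1 h.symm).resolve_right (by norm_num)
  refine ⟨φ, fun χ hχ y hy => by rw [hmult χ hχ y hy, hd χ hχ, Nat.cast_one, one_mul], fun h0 => ?_⟩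
  obtain ⟨χ, hχ⟩ := IsPBlock.nonempty hM hB
  exact apply_one_ne_zero χ.2 (by rw [hmult χ hχ 1 h1, h0, mul_zero])

end CfsgLib.KleinFour
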